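import Cfsg.Agent.Lib.OmStem.Weyl
import Cfsg.Agent.Lib.Schur.SLnStem2
import Cfsg.Agent.Lib.Schur.SpStem.Lift

/-!
# The stem bound for `Ω⁺_{2n}` (module C2)

`flipSec_of_central`: `flipG A` is an isometry and `Ω` is normal in `O`, so `l ↦ flipG A * levG l * (flipG A)⁻¹` is a hom to `Ω`
(`levG_mem_omega`); lift it with `SpStem.exists_section`, `SLnStem.stem_sl_trivial`.

`om_stem_bound`: take `lam` = section for `A = ∅` (`flipG_empty`), `w, z` from `exists_weyl` (any `D : Dist a b c d` with `4 ≤ n`).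
Let `S = closure (range lam ∪ {w})`; `z ∈ S`, `Z = zpowers z` is normal in `S`, and in `S ⧸ Z` the images of `lam`, `w` satisfy `OmHyp`; so `OmHyp.injective` (`hgen` by `H.mu_wn`)
applied to the map `S ⧸ Z → GL` induced by `iO ∘ σ` shows `ker (σ|S) = Z`. `σ S = Ω` (`closure_lev_W`), so `Γ = S * ker σ`, `commutator Γ ≤ S`
(`SLnStem.commutator_le_range_of_central`), so `ker σ ≤ S`, `ker σ = Z`.
-/

set_option autoImplicit false

namespace Cfsg.Agent.Lib.OmStem

open Matrix Cfsg Subgroup Cfsg.Agent.Lib.PresOm Cfsg.Agent.Lib.PresSp.M2 Cfsg.Agent.Lib.PresSp.Mono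
  Cfsg.Agent.Lib.PresSLn.TwoGen Cfsg.Agent.Lib.PresSp.Abs


section bound

universe u

variable {n : ℕ} {F : Type u} [Field F] [Fintype F]

/-- The flipped Levi subgroups lift to any central extension of `Ω`. -/
theorem flipSec_of_central {Γ : Type u} [Group Γ] [Finite Γ] (hn : 4 ≤ n) (hexc : ¬ (n = 4 ∧ Fintype.card F = 2))
    {σ : Γ →* Omega F (quadFormPlus n F)} (hs : Function.Surjective σ) (hcen : σ.ker ≤ center Γ) :
    FlipSec ((iO : Omega F (quadFormPlus n F) →* _).comp σ) := by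
  refine ⟨?_, ?_⟩
  · intro x hx
    apply hcen
    rw [MonoidHom.mem_ker] at *
    exact iO_inj (by simpa using hx)
  · intro A
    let f : SpecialLinearGroup (Fin n) F →* GeneralLinearGroup (Fin n ⊕ Fin n) F :=
      (MulAut.conj (flipG A : GeneralLinearGroup (Fin n ⊕ Fin n) F)).toMonoidHom.comp levG
    have hf : ∀ l, f l = flipG A * levG l * (flipG A)⁻¹ := fun l => rfl
    have hl : ∀ l, f l ∈ (iO : Omega F (quadFormPlus n F) →* _).range := by
      intro l
      have h1 : levG l ∈ (iO : Omega F (quadFormPlus n F) →* _).range := by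
        rw [iO_range]
        exact levG_mem_omega (by omega) (by omega) l
      obtain ⟨x, hx⟩ := h1
      have hN : (Omega F (quadFormPlus n F)).Normal := inferInstance
      let y : isometryGroup F (quadFormPlus n F) := ⟨flipG A, flipG_mem A⟩
      refine ⟨⟨y * x.1 * y⁻¹, hN.conj_mem _ x.2 y⟩, ?_⟩
      rw [hf, ← hx]
      rfl
    let e := MonoidHom.ofInjective (iO_inj (n := n) (F := F))
    let ρ : SpecialLinearGroup (Fin n) F →* Omega F (quadFormPlus n F) := e.symm.toMonoidHom.comp (f.codRestrict _ hl)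
    have hρ : ∀ l, iO (ρ l) = f l := fun l => congrArg Subtype.val (e.apply_symm_apply (f.codRestrict _ hl l))
    have hK : commutator (SpecialLinearGroup (Fin n) F) = ⊤ :=
      Cfsg.Agent.Lib.Classical.Transvections.commutator_sl_eq_top (F := F) (by rw [Fintype.card_fin]; omega)
    obtain ⟨s, hs'⟩ := Cfsg.Agent.Lib.Schur.SpStem.exists_section (ρ := ρ) hs hcen hK (by
      intro Δ _ _ τ hτ z hz
      exact Cfsg.Agent.Lib.Schur.SLnStem.stem_sl_trivial hτ (by rw [Fintype.card_fin]; omega)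
        (by rw [Fintype.card_fin]; omega) (fun h => by rw [Fintype.card_fin] at h; exact fun h2 => hexc ⟨h, h2⟩) hz)
    refine ⟨s, fun l => ?_⟩
    rw [MonoidHom.comp_apply, hs', hρ, hf]

/-- The kernel of a stem extension of `Ω⁺_{2n}(F)` has order at most two, and is trivial in characteristic two. -/
theorem om_stem_bound {Γ : Type u} [Group Γ] [Finite Γ] (hn : 4 ≤ n) (hexc : ¬ (n = 4 ∧ Fintype.card F = 2))
    {σ : Γ →* Omega F (quadFormPlus n F)} (hσ : IsStemExtension σ) :
    ∃ z : Γ, z * z = 1 ∧ σ.ker = zpowers z ∧ ((2 : F) = 0 → z = 1) := by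
  classical
  obtain ⟨hsurj, hcen, hcomm⟩ := hσ
  have H := flipSec_of_central hn hexc hsurj hcen
  set π := (iO : Omega F (quadFormPlus n F) →* _).comp σ with hπ
  have hπ1 : ∀ x, π x = 1 ↔ σ x = 1 := by
    intro x
    constructor
    · intro h
      exact iO_inj (by simpa [hπ] using h)
    · intro h
      simp [hπ, h]
  obtain ⟨lam, hlam⟩ : ∃ lam : SpecialLinearGroup (Fin n) F →* Γ, ∀ l, π (lam l) = levG l := by
    obtain ⟨lam, hlam⟩ := H.sec ∅
    refine ⟨lam, fun l => ?_⟩
    rw [hlam, flipG_empty]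
    group
  have hn' : 0 < n := by omega
  have D : Dist (⟨0, by omega⟩ : Fin n) ⟨1, by omega⟩ ⟨2, by omega⟩ ⟨3, by omega⟩ := by
    constructor <;> simp [Fin.ext_iff]
  obtain ⟨w, hπw, ht, htab, htba, hbr, hs1, hs2, z, hzc, hww, hzz, hz2⟩ := exists_weyl H hn D lam hlam
  refine ⟨z, hzz, ?_, hz2⟩
  have hπz : π z = 1 := by
    have e : π (w * w) = π (z * lam (tt D.ab (-1))) := by rw [hww]
    rw [map_mul, map_mul, hπw, hlam, WtG_sq] at e
    exact (mul_eq_right.1 e.symm)
  set S : Subgroup Γ := closure (Set.range lam ∪ {w}) with hS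
  have hlS : ∀ l, lam l ∈ S := fun l => subset_closure (Or.inl ⟨l, rfl⟩)
  have hwS : w ∈ S := subset_closure (Or.inr rfl)
  have hzS : z ∈ S := by
    have : z = w * w * (lam (tt D.ab (-1)))⁻¹ := by rw [hww]; group
    rw [this]
    exact mul_mem (mul_mem hwS hwS) (inv_mem (hlS _))
  -- the central subgroup
  have hN : (zpowers z).Normal := by
    refine ⟨fun x hx g => ?_⟩
    have hxc : x ∈ center Γ := by
      have : zpowers z ≤ center Γ := by rw [zpowers_le]; exact hzc
      exact this hx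
    rw [mem_center_iff.1 hxc g]
    simpa using hx
  let ZS : Subgroup S := (zpowers z).subgroupOf S
  have hZS : ZS.Normal := hN.subgroupOf S
  let Q := S ⧸ ZS
  let mk : S →* Q := QuotientGroup.mk' ZS
  let lamS : SpecialLinearGroup (Fin n) F →* S := lam.codRestrict S hlS
  let wS : S := ⟨w, hwS⟩
  let lamQ := mk.comp lamS
  let wQ : Q := mk wS
  have hcomm' : ∀ {x y : S}, Commute (x : Γ) (y : Γ) → Commute (mk x) (mk y) := fun {x y} h =>
    (show Commute x y from Subtype.ext h).map mk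
  have hQ : OmHyp lamQ wQ D := by
    refine ⟨fun l ε h1 h2 => hcomm' (ht l ε h1 h2), fun t => hcomm' (htab t), fun t => hcomm' (htba t), ?_, ?_, ?_, ?_⟩
    · have : wS * wS = (⟨z, hzS⟩ : S) * lamS (tt D.ab (-1)) := Subtype.ext hww
      change mk wS * mk wS = mk (lamS _)
      rw [← map_mul, this, map_mul]
      have hz1 : mk ⟨z, hzS⟩ = 1 := by
        rw [QuotientGroup.mk'_apply, QuotientGroup.eq_one_iff]
        exact Subgroup.mem_subgroupOf.2 (mem_zpowers z)
      rw [hz1, one_mul]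
    · have : (lamS (em D.ca wn))⁻¹ * wS * (lamS (em D.ca wn))⁻¹ = wS * (lamS (em D.ca wn))⁻¹ * wS := Subtype.ext hbr
      have := congrArg mk this
      simpa [lamQ, wQ] using this
    · have := hcomm' (x := wS * lamS (TT D.ca 1) * wS⁻¹) (y := lamS (TT D.da 1)) hs1
      simpa [lamQ, wQ] using this
    · have := hcomm' (x := wS * lamS (TT D.cb 1) * wS⁻¹) (y := lamS (TT D.ca 1)) hs2
      simpa [lamQ, wQ] using this
  -- the map to the target
  have hker : ∀ x ∈ ZS, (π.comp S.subtype) x = 1 := by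
    intro x hx
    have hx' : (x : Γ) ∈ zpowers z := Subgroup.mem_subgroupOf.1 hx
    obtain ⟨m, hm⟩ := mem_zpowers_iff.1 hx'
    change π (x : Γ) = 1
    rw [← hm, map_zpow, hπz, _root_.one_zpow]
  let φ : Q →* GeneralLinearGroup (Fin n ⊕ Fin n) F := QuotientGroup.lift ZS (π.comp S.subtype) hker
  have hφ : ∀ x : S, φ (mk x) = π x := fun x => rfl
  have hφ1 : ∀ l, φ (lamQ l) = levG l := fun l => hlam l
  have hφ2 : φ wQ = WtG D.ab := hπw
  have hgen : closure (Set.range lamQ ∪ Set.range (mu lamQ wQ D)) = ⊤ := by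
    rw [eq_top_iff]
    rintro q -
    obtain ⟨x, rfl⟩ := QuotientGroup.mk'_surjective ZS q
    change mk x ∈ _
    obtain ⟨x, hx⟩ := x
    refine closure_induction (p := fun y hy => mk ⟨y, hy⟩ ∈ closure (Set.range lamQ ∪ Set.range (mu lamQ wQ D))) ?_ ?_ ?_ ?_ hx
    · rintro y (⟨l, rfl⟩ | hy)
      · exact subset_closure (Or.inl ⟨l, rfl⟩)
      · have hy' : y = w := hy
        subst hy'
        exact subset_closure (Or.inr ⟨wn, hQ.mu_wn⟩)
    · exact one_mem _
    · intro y y' hy hy' h1 h2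
      exact mul_mem h1 h2
    · intro y hy h1
      exact inv_mem h1
  have hinj := OmHyp.injective hQ φ hφ1 hφ2 hgen
  -- `S` covers `Ω`
  have hmap : ∀ g : Γ, ∃ q : S, σ (S.subtype q) = σ g := by
    intro g
    have hn7 : 7 ≤ Fintype.card (Fin n ⊕ Fin n) := by simp; omega
    have h1 : iO (σ g) ∈ closure (Set.range (levG : SpecialLinearGroup (Fin n) F →* _) ∪ {WtG D.ab}) := by
      rw [closure_lev_W hn7 (by omega) (by omega) D, ← iO_range]
      exact ⟨_, rfl⟩
    have h2 : closure (Set.range (levG : SpecialLinearGroup (Fin n) F →* _) ∪ {WtG D.ab}) ≤ S.map π := by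
      rw [closure_le]
      rintro _ (⟨l, rfl⟩ | hy)
      · exact ⟨lam l, hlS l, hlam l⟩
      · have hy' := hy
        simp only [Set.mem_singleton_iff] at hy'
        subst hy'
        exact ⟨w, hwS, hπw⟩
    obtain ⟨y, hy, hy2⟩ := h2 h1
    exact ⟨⟨y, hy⟩, iO_inj hy2⟩
  have hcS : commutator Γ ≤ S.subtype.range :=
    Cfsg.Agent.Lib.Schur.SLnStem.commutator_le_range_of_central hcen S.subtype hmap
  apply le_antisymm
  · intro x hx
    have hx2 : x ∈ S.subtype.range := hcS (hcomm hx)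
    obtain ⟨y, rfl⟩ := hx2
    have h1 : φ (mk y) = 1 := by
      rw [hφ]
      exact (hπ1 _).2 hx
    have h2 := hinj (h1.trans (map_one φ).symm)
    rw [QuotientGroup.mk'_apply, QuotientGroup.eq_one_iff] at h2
    exact Subgroup.mem_subgroupOf.1 h2
  · rw [zpowers_le]
    exact (hπ1 z).1 hπz

end bound

end Cfsg.Agent.Lib.OmStem
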