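import Cfsg.Agent.Lib.OmStem.Lift
import Cfsg.Agent.Lib.OmStem.Bound
import Cfsg.Agent.Lib.LocalBal.OmMain

/-!
# The stem extension `Us → Ω` (module F)

`Ut → Ω` is surjective (`ut_lift`) with scalar (central) kernel (`ut_scalar`). `Ω` is perfect (`LocalBal.OmMain.perfect_omega`, `plusForm`), so `Us → Ω` is surjective; `Ut = Us * Z`, `Z` central,
so `Us = ⁅Ut,Ut⁆ = ⁅Us,Us⁆` is perfect. Thus `piU` is a stem extension, and `om_stem_bound` gives `ker piU = zpowers z`, `z*z=1`; `(1,-1) ∈ ker piU` (`neg_mem_Us`) is not `1` as `2 ≠ 0`: so `ker = {1, (1,-1)}`.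
`stem_triv_Us`: a stem `τ : Γ → Us`: `Γ` is perfect, `piU ∘ τ` has central kernel (the kernel `K` satisfies `⁅K,Γ,Γ⁆ = 1`, so by the three subgroups lemma `⁅K,⁅Γ,Γ⁆⁆ = 1`), so it is a stem extension of `Ω`: `|ker (piU ∘ τ)| ≤ 2`, and it surjects onto `ker piU` of order two, with kernel `ker τ`. So `ker τ = 1`.
-/

set_option autoImplicit false

namespace Cfsg.Agent.Lib.OmStem

open Matrix Cfsg Subgroup Cfsg.Agent.Lib.PresOm Cfsg.Agent.Lib.PresSp.M2 Cfsg.Agent.Lib.PresSp.Mono
  Cfsg.Agent.Lib.PresSLn.TwoGen Cfsg.Agent.Lib.PresSp.Abs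

open scoped commutatorElement

section cover

universe u

variable {n : ℕ} {F : Type u} [Field F] [Fintype F]

instance finite_Us : Finite (Us n F) := by
  classical
  haveI : Finite (Omega F (quadFormPlus n F)) := by
    unfold Omega
    infer_instance
  infer_instance

/-- The map from the Clifford group to `Ω`. -/
private def piT : Ut n F →* Omega F (quadFormPlus n F) := (MonoidHom.fst _ _).comp (Ut n F).subtype

private lemma omega_perfect (hn : 4 ≤ n) : commutator (Omega F (quadFormPlus n F)) = ⊤ := by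
  have h := Cfsg.Agent.Lib.LocalBal.OmMain.perfect_omega (F := F) (ι := Fin n ⊕ Fin n)
    (Q := Cfsg.Agent.Lib.Orth.Forms.plusForm n F) (Cfsg.Agent.Lib.Orth.Forms.plusForm_nondeg n)
    (by simp; omega)
  exact h

/-- An element of `Ut` with trivial first coordinate is central in the product. -/
private lemma central_of_fst {p : Omega F (quadFormPlus n F) × GeneralLinearGroup (Bt n) F}
    (hp : p ∈ Ut n F) (h1 : p.1 = 1) (x : Omega F (quadFormPlus n F) × GeneralLinearGroup (Bt n) F) :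
    p * x = x * p := by
  obtain ⟨c, hc⟩ := ut_scalar hp h1
  rcases p with ⟨g, A⟩
  change g = 1 at h1
  subst h1
  refine Prod.ext (by simp) ?_
  apply Units.ext
  change (A : MS n F) * (x.2 : MS n F) = (x.2 : MS n F) * (A : MS n F)
  change (A : MS n F) = _ at hc
  rw [hc]
  simp

private lemma fst_mem_of_us (hn : 4 ≤ n) (h2 : (2 : F) ≠ 0) (g : Omega F (quadFormPlus n F)) :
    ∃ p ∈ Us n F, p.1 = g := by
  have hsurj : (Us n F).map (MonoidHom.fst _ _) = ⊤ := by
    have hU : (Ut n F).map (MonoidHom.fst _ _) = ⊤ := by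
      rw [eq_top_iff]
      intro g _
      obtain ⟨A, hA⟩ := ut_lift h2 hn g
      exact ⟨(g, A), hA, rfl⟩
    have := Subgroup.map_commutator (Ut n F) (Ut n F) (MonoidHom.fst (Omega F (quadFormPlus n F)) (GeneralLinearGroup (Bt n) F))
    rw [this, hU]
    exact omega_perfect hn
  have hg : g ∈ (Us n F).map (MonoidHom.fst _ _) := by rw [hsurj]; trivial
  obtain ⟨p, hp, rfl⟩ := hg
  exact ⟨p, hp, rfl⟩

theorem Us_perfect (h2 : (2 : F) ≠ 0) (hn : 4 ≤ n) : commutator (Us n F) = ⊤ := by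
  -- it suffices: `Us ≤ ⁅Us, Us⁆` inside the product
  have hle : Us n F ≤ ⁅Us n F, Us n F⁆ := by
    refine Subgroup.commutator_le.2 ?_
    intro p hp p' hp'
    obtain ⟨q, hq, hq1⟩ := fst_mem_of_us hn h2 p.1
    obtain ⟨q', hq', hq1'⟩ := fst_mem_of_us hn h2 p'.1
    have hqU := Us_le_Ut hq
    have hqU' := Us_le_Ut hq'
    have hz : q⁻¹ * p ∈ Ut n F := mul_mem (inv_mem hqU) hp
    have hz' : q'⁻¹ * p' ∈ Ut n F := mul_mem (inv_mem hqU') hp'
    have hz1 : (q⁻¹ * p).1 = 1 := by simp [hq1]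
    have hz1' : (q'⁻¹ * p').1 = 1 := by simp [hq1']
    have hc := central_of_fst hz hz1
    have hc' := central_of_fst hz' hz1'
    have e : ⁅p, p'⁆ = ⁅q, q'⁆ := by
      have ep : p = q * (q⁻¹ * p) := by group
      have ep' : p' = q' * (q'⁻¹ * p') := by group
      rw [ep, ep', Cfsg.Agent.Lib.Schur.SLnStem.comm_central_left hc,
        Cfsg.Agent.Lib.Schur.SLnStem.comm_central_right hc']
    rw [e]
    exact Subgroup.commutator_mem_commutator hq hq'
  rw [eq_top_iff]
  rintro ⟨p, hp⟩ -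
  -- transfer along the subtype
  have hmap : (commutator (Us n F)).map (Us n F).subtype = ⁅Us n F, Us n F⁆ :=
    Subgroup.map_subtype_commutator _
  have hp2 := hle hp
  rw [← hmap] at hp2
  obtain ⟨x, hx, hxe⟩ := hp2
  have : x = ⟨p, hp⟩ := Subtype.ext hxe
  rwa [← this]

theorem piU_stem (h2 : (2 : F) ≠ 0) (hn : 4 ≤ n) : IsStemExtension (piU n F) := by
  refine ⟨?_, ?_, ?_⟩
  · intro g
    obtain ⟨p, hp, hpg⟩ := fst_mem_of_us hn h2 g
    exact ⟨⟨p, hp⟩, hpg⟩
  · intro x hx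
    rw [Subgroup.mem_center_iff]
    intro y
    apply Subtype.ext
    exact (central_of_fst (Us_le_Ut x.2) hx y.1).symm
  · rw [Us_perfect h2 hn]
    exact le_top

private lemma hexc_of_two (h2 : (2 : F) ≠ 0) : ¬ (n = 4 ∧ Fintype.card F = 2) := by
  rintro ⟨-, hc⟩
  apply h2
  have h3 := FiniteField.cast_card_eq_zero F
  rw [hc] at h3
  exact_mod_cast h3

/-- The central element `(1,-1)`. -/
private def negU (h2 : (2 : F) ≠ 0) (hn : 4 ≤ n) : Us n F := ⟨(1, -1), neg_mem_Us h2 hn⟩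

private lemma neg_ne_one_GL (h2 : (2 : F) ≠ 0) : (-1 : GeneralLinearGroup (Bt n) F) ≠ 1 := by
  intro h
  have h1 := congrArg (fun x : GeneralLinearGroup (Bt n) F => (x : MS n F)) h
  have h3 := congrFun (congrFun h1 (fun _ => false)) (fun _ => false)
  have h4 : (-1 : F) = 1 := by simpa using h3
  apply h2
  have : (2 : F) = 1 - (-1) := by ring
  rw [this, h4, sub_self]

private lemma negU_ne (h2 : (2 : F) ≠ 0) (hn : 4 ≤ n) : negU h2 hn ≠ (1 : Us n F) := by
  intro h
  have h1 := congrArg (fun x : Us n F => (x : Omega F (quadFormPlus n F) × GeneralLinearGroup (Bt n) F).2) h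
  exact neg_ne_one_GL h2 h1

private lemma negU_ker (h2 : (2 : F) ≠ 0) (hn : 4 ≤ n) : piU n F (negU h2 hn) = 1 := rfl

private lemma eq_of_mem_zpowers {G : Type*} [Group G] {w x : G} (hw : w * w = 1) (hx : x ∈ zpowers w) :
    x = 1 ∨ x = w := by
  obtain ⟨k, rfl⟩ := hx
  have h2 : w ^ (2 : ℤ) = 1 := by
    rw [zpow_two, hw]
  have hk : k = 2 * (k / 2) + k % 2 := (Int.mul_ediv_add_emod k 2).symm
  change w ^ k = 1 ∨ w ^ k = w
  rcases Int.emod_two_eq_zero_or_one k with h | h
  · left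
    rw [hk, h, _root_.zpow_add, _root_.zpow_mul, h2]; simp
  · right
    rw [hk, h, _root_.zpow_add, _root_.zpow_mul, h2]; simp

private lemma ker_eq (h2 : (2 : F) ≠ 0) (hn : 4 ≤ n) {x : Us n F} (hx : piU n F x = 1) :
    x = 1 ∨ x = negU h2 hn := by
  obtain ⟨z, hzz, hker, -⟩ := om_stem_bound hn (hexc_of_two h2) (piU_stem h2 hn)
  have hneg : negU h2 hn ∈ zpowers z := by
    rw [← hker]; exact negU_ker h2 hn
  have hz : z = negU h2 hn := by
    rcases eq_of_mem_zpowers hzz hneg with h | h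
    · exact absurd h (negU_ne h2 hn)
    · exact h.symm
  have hx' : x ∈ zpowers z := by rw [← hker]; exact hx
  rcases eq_of_mem_zpowers hzz hx' with h | h
  · exact Or.inl h
  · exact Or.inr (h.trans hz)

/-- The kernel of `piU`. -/
theorem piU_ker (h2 : (2 : F) ≠ 0) (hn : 4 ≤ n) {x : Us n F} (hx : piU n F x = 1) :
    (x : Omega F (quadFormPlus n F) × GeneralLinearGroup (Bt n) F).2 = 1 ∨ (x : Omega F (quadFormPlus n F) × GeneralLinearGroup (Bt n) F).2 = -1 := by
  rcases ker_eq h2 hn hx with rfl | rfl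
  · exact Or.inl rfl
  · exact Or.inr rfl

theorem card_ker_piU (h2 : (2 : F) ≠ 0) (hn : 4 ≤ n) : Nat.card (piU n F).ker = 2 := by
  rw [Nat.card_eq_two_iff]
  refine ⟨1, ⟨negU h2 hn, negU_ker h2 hn⟩, ?_, ?_⟩
  · intro h
    exact negU_ne h2 hn (congrArg Subtype.val h).symm
  · ext ⟨x, hx⟩
    simp only [Set.mem_insert_iff, Set.mem_singleton_iff, Set.mem_univ, iff_true]
    rcases ker_eq h2 hn hx with rfl | rfl
    · exact Or.inl rfl
    · exact Or.inr rfl

/-- The spin group has no proper stem extensions. -/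
theorem stem_triv_Us (h2 : (2 : F) ≠ 0) (hn : 4 ≤ n) {Γ : Type u} [Group Γ] [Finite Γ] {τ : Γ →* Us n F}
    (hτ : IsStemExtension τ) (z : Γ) (hz : τ z = 1) : z = 1 := by
  have hU := piU_stem h2 hn
  have hΓ : commutator Γ = ⊤ := eq_top_iff.2 fun g _ =>
    Cfsg.Agent.Lib.Schur.SLnStem.mem_commutator_of_perfect' hτ (Us_perfect h2 hn) g
  set σ : Γ →* Omega F (quadFormPlus n F) := (piU n F).comp τ with hσ
  have hs : Function.Surjective σ := hU.1.comp hτ.1
  -- the kernel is central, by the three subgroups lemma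
  have hcen : σ.ker ≤ center Γ := by
    have h1 : ⁅⁅σ.ker, (⊤ : Subgroup Γ)⁆, (⊤ : Subgroup Γ)⁆ = ⊥ := by
      rw [eq_bot_iff, Subgroup.commutator_le]
      intro c hc g _
      have hc' : c ∈ τ.ker := by
        have hle : ⁅σ.ker, (⊤ : Subgroup Γ)⁆ ≤ τ.ker := by
          rw [Subgroup.commutator_le]
          intro k hk g _
          rw [MonoidHom.mem_ker, map_commutatorElement]
          have hk' : τ k ∈ (piU n F).ker := hk
          have := Subgroup.mem_center_iff.1 (hU.2.1 hk') (τ g)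
          rw [commutatorElement_eq_one_iff_mul_comm]
          exact this.symm
        exact hle hc
      have := Subgroup.mem_center_iff.1 (hτ.2.1 hc') g
      rw [Subgroup.mem_bot, commutatorElement_eq_one_iff_mul_comm]
      exact this.symm
    have h2' : ⁅⁅(⊤ : Subgroup Γ), σ.ker⁆, (⊤ : Subgroup Γ)⁆ = ⊥ := by
      rw [Subgroup.commutator_comm (⊤ : Subgroup Γ) σ.ker]
      exact h1
    have h3 := Subgroup.commutator_commutator_eq_bot_of_rotate (H₁ := (⊤ : Subgroup Γ)) (H₂ := (⊤ : Subgroup Γ))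
      (H₃ := σ.ker) h2' h1
    have h4 : ⁅(⊤ : Subgroup Γ), (⊤ : Subgroup Γ)⁆ = ⊤ := hΓ
    rw [h4] at h3
    intro k hk
    rw [Subgroup.mem_center_iff]
    intro g
    have h5 : ⁅g, k⁆ ∈ ⁅(⊤ : Subgroup Γ), σ.ker⁆ := Subgroup.commutator_mem_commutator trivial hk
    rw [h3, Subgroup.mem_bot, commutatorElement_eq_one_iff_mul_comm] at h5
    exact h5
  have hst : IsStemExtension σ := ⟨hs, hcen, by rw [hΓ]; exact le_top⟩
  obtain ⟨w, hww, hker, -⟩ := om_stem_bound hn (hexc_of_two h2) hst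
  obtain ⟨x, hx⟩ := hτ.1 (negU h2 hn)
  have hxk : x ∈ zpowers w := by
    rw [← hker, MonoidHom.mem_ker, hσ, MonoidHom.comp_apply, hx]
    exact negU_ker h2 hn
  have hzk : z ∈ zpowers w := by
    rw [← hker, MonoidHom.mem_ker, hσ, MonoidHom.comp_apply, hz, map_one]
  have hxw : x = w := by
    rcases eq_of_mem_zpowers hww hxk with h | h
    · exfalso
      rw [h, map_one] at hx
      exact negU_ne h2 hn hx.symm
    · exact h
  rcases eq_of_mem_zpowers hww hzk with h | h
  · exact h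
  · exfalso
    rw [h, ← hxw, hx] at hz
    exact negU_ne h2 hn hz

end cover

end Cfsg.Agent.Lib.OmStem
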