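import Cfsg.Agent.Lib.OmStem.Spin
import Cfsg.Agent.Lib.Orth.Bridge
import Cfsg.Agent.Lib.Classical.QuadEichBridge
import Cfsg.Agent.Lib.Orth.Closure
import Cfsg.Agent.Lib.Orth.Forms

/-!
# Lifting `Ω` to the Clifford group (module E2)

`rho_anti` + `rho_sq`: for `Q v ≠ 0`: `ρ(v) ρ(u) ρ(v)⁻¹ = -ρ(r_v u)` where `r_v` is the reflection (`reflectionMatrix`; `ρ(v)⁻¹ = (Q v)⁻¹ ρ(v)`).
So for an even word `vs`, `A = ∏ ρ(v)` (a unit) satisfies `A ρ(u) = ρ((∏ r_v) u) A`.
`ut_lift`: `g ∈ Ω`: `Orth.Bridge.hgen` (`plusForm n F`, `plusForm_nondeg`, `coe_plusForm`) gives a word in reflections, of even length by `Orth.Bridge.word_mem_Omega_iff`.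
`neg_mem_Us`: `v_i = e_i + f_i` (`Q = 1`, pairwise polar `0`, so `ρ(v_i)² = 1`, anticommuting). `X = ρ(v_1)ρ(v_2)`, `Y = ρ(v_2)ρ(v_3)` lie over elements of `Ω` (`word_mem_Omega_iff`: even, product of `Q` is `1`),
and `X Y = ρ(v_1)ρ(v_3) = -Y X`, so `⁅X, Y⁆ = -1`, lying over `⁅g₁, g₂⁆ = 1` (`g₁, g₂` commute: they act on orthogonal vectors, or: `⁅g₁,g₂⁆` is determined by `ρ`, use `rho` injective on..., or compute `(r_1 r_2)(r_2 r_3) = r_1 r_3 = (r_2 r_3)(r_1 r_2)` by `refl_comm_of_ortho`).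
-/

set_option autoImplicit false

namespace Cfsg.Agent.Lib.OmStem

open Matrix Cfsg Subgroup Cfsg.Agent.Lib.PresOm Cfsg.Agent.Lib.PresSp.M2 Cfsg.Agent.Lib.PresSp.Mono
  Cfsg.Agent.Lib.PresSLn.TwoGen Cfsg.Agent.Lib.PresSp.Abs


section spin

variable {n : ℕ} {F : Type*} [Field F]

open Cfsg.Agent.Lib.Orth.Bridge Cfsg.Agent.Lib.Orth.Refl Cfsg.Agent.Lib.Orth.Gen
  Cfsg.Agent.Lib.Orth.Spin Cfsg.Agent.Lib.Orth.Forms Cfsg.Agent.Lib.Orth.Closure QuadraticMap

local notation "QQ" => Cfsg.Agent.Lib.Orth.Forms.plusForm n F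

namespace LiftAux

lemma polar_plus (u v : Fin n ⊕ Fin n → F) :
    polar (⇑(QQ)) u v = ∑ i, (u (Sum.inl i) * v (Sum.inr i) + u (Sum.inr i) * v (Sum.inl i)) := by
  simp only [polar, coe_plusForm, quadFormPlus, Pi.add_apply, ← Finset.sum_sub_distrib]
  refine Finset.sum_congr rfl fun i _ => ?_
  ring

lemma rho_sub_smul (u v : Fin n ⊕ Fin n → F) (c : F) :
    rho (u - c • v) = rho u - c • rho v := by
  have : u - c • v = u + (-c) • v := by
    rw [sub_eq_add_neg, neg_smul]
  rw [this, rho_add, rho_smul, neg_smul, sub_eq_add_neg]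

/-- The basic reflection relation. -/
lemma rho_refl (v u : Fin n ⊕ Fin n → F) (hv : (QQ) v ≠ 0) :
    rho v * rho u = -(rho (refl (QQ) v u) * rho v) := by
  have h1 := rho_anti v u
  have h2 := rho_sq v
  rw [refl_apply, rho_sub_smul, sub_mul, smul_mul_assoc, h2, smul_smul, smul_one_eq_diagonal]
  have hq : ((QQ) v)⁻¹ * polar (⇑(QQ)) u v * quadFormPlus n F v = polar (⇑(QQ)) u v := by
    have : quadFormPlus n F v = (QQ) v := rfl
    rw [this]
    field_simp
  rw [hq, polar_plus]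
  have hsym : (∑ i, (u (Sum.inl i) * v (Sum.inr i) + u (Sum.inr i) * v (Sum.inl i))) =
      ∑ i, (v (Sum.inl i) * u (Sum.inr i) + v (Sum.inr i) * u (Sum.inl i)) := by
    refine Finset.sum_congr rfl fun i _ => ?_
    ring
  rw [hsym, ← smul_one_eq_diagonal, ← h1]
  noncomm_ring

/-- Words in `rho`. -/
lemma word_rho (vs : List (Fin n ⊕ Fin n → F)) (hvs : ∀ v ∈ vs, (QQ) v ≠ 0) (u : Fin n ⊕ Fin n → F) :
    (vs.map rho).prod * rho u = ((-1 : F) ^ vs.length) • (rho ((vs.map (refl (QQ))).prod u) * (vs.map rho).prod) := by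
  induction vs generalizing u with
  | nil => simp
  | cons v vs ih =>
    have hv := hvs v List.mem_cons_self
    simp only [List.map_cons, List.prod_cons, List.length_cons]
    rw [mul_assoc, ih (fun w hw => hvs w (List.mem_cons_of_mem _ hw)), mul_smul_comm, ← mul_assoc,
      rho_refl v _ hv]
    change _ = _ • (rho (refl (QQ) v ((vs.map (refl (QQ))).prod u)) * _)
    rw [pow_succ, mul_smul, neg_mul, smul_neg, mul_assoc]
    simp [mul_smul]

lemma isUnit_rho (v : Fin n ⊕ Fin n → F) (hv : (QQ) v ≠ 0) : IsUnit (rho v) := by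
  have h := rho_sq v
  have hv' : quadFormPlus n F v ≠ 0 := hv
  refine IsUnit.of_mul_eq_one ((quadFormPlus n F v)⁻¹ • rho v) ?_
  rw [mul_smul_comm, h, smul_smul, inv_mul_cancel₀ hv', one_smul]

lemma isUnit_word (vs : List (Fin n ⊕ Fin n → F)) (hvs : ∀ v ∈ vs, (QQ) v ≠ 0) :
    IsUnit (vs.map rho).prod := by
  apply List.prod_isUnit
  intro m hm
  obtain ⟨v, hv, rfl⟩ := List.mem_map.mp hm
  exact isUnit_rho v (hvs v hv)

/-- A word of even length lifts. -/
lemma lift_of_word (g : Omega F (quadFormPlus n F)) (vs : List (Fin n ⊕ Fin n → F))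
    (hvs : ∀ v ∈ vs, (QQ) v ≠ 0) (hev : Even vs.length)
    (hg : ∀ u, ((iO g : GeneralLinearGroup _ F) : Matrix _ _ F) *ᵥ u = (vs.map (refl (QQ))).prod u) :
    (g, (isUnit_word vs hvs).unit) ∈ Ut n F := by
  intro u
  change (vs.map rho).prod * rho u = rho _ * (vs.map rho).prod
  rw [word_rho vs hvs, hev.neg_one_pow, one_smul, hg]

end LiftAux

open LiftAux

theorem ut_lift [Fintype F] (h2 : (2 : F) ≠ 0) (hn : 4 ≤ n) (g : Omega F (quadFormPlus n F)) :
    ∃ A : GeneralLinearGroup (Bt n) F, (g, A) ∈ Ut n F := by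
  have hQ := plusForm_nondeg (F := F) n
  have hcard : Fintype.card F ≠ 2 ∨ Fintype.card (Fin n ⊕ Fin n) ≠ 4 := by
    right
    simp
    omega
  have hW := hgen (QQ) hQ hcard _ (toIso (QQ) g.1).2
  obtain ⟨vs, hvs, hprod⟩ := exists_list_of_mem_W hW
  have hmat : ((g.1.1 : GeneralLinearGroup (Fin n ⊕ Fin n) F) : Matrix (Fin n ⊕ Fin n) (Fin n ⊕ Fin n) F) =
      (vs.map (fun v => reflectionMatrix (⇑(QQ)) v)).prod := by
    apply Cfsg.Agent.Lib.Orth.Words.mat_eq_of_mulVec
    intro x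
    rw [word_mulVec, hprod]
    rfl
  have hmem := (word_mem_Omega_iff (QQ) hQ hcard g.1 vs hvs hmat).mp g.2
  refine ⟨(isUnit_word vs hvs).unit, lift_of_word g vs hvs hmem.1 ?_⟩
  intro u
  rw [hprod]
  rfl

namespace LiftAux

/-- The vectors `e_i + f_i`. -/
def vv (i : Fin n) : Fin n ⊕ Fin n → F := Sum.elim (Pi.single i 1) (Pi.single i 1)

lemma Q_vv (i : Fin n) : (QQ) (vv i) = 1 := by
  change quadFormPlus n F (vv i) = 1
  simp only [quadFormPlus, vv, Sum.elim_inl, Sum.elim_inr]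
  rw [Finset.sum_eq_single i]
  · simp
  · intro j _ hj
    simp [hj]
  · simp

lemma polar_vv {i j : Fin n} (h : i ≠ j) : polar (⇑(QQ)) (vv i) (vv j) = 0 := by
  rw [polar_plus]
  refine Finset.sum_eq_zero fun k _ => ?_
  simp only [vv, Sum.elim_inl, Sum.elim_inr, Pi.single_apply]
  by_cases h1 : k = i
  · by_cases h2 : k = j
    · exact absurd (h1.symm.trans h2) h
    · simp [h2]
  · simp [h1]

lemma rho_vv_sq (i : Fin n) : rho (vv i : Fin n ⊕ Fin n → F) * rho (vv i) = 1 := by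
  rw [rho_sq]
  have : quadFormPlus n F (vv i) = 1 := Q_vv i
  rw [this, one_smul]

lemma rho_vv_anti {i j : Fin n} (h : i ≠ j) :
    rho (vv i : Fin n ⊕ Fin n → F) * rho (vv j) = -(rho (vv j) * rho (vv i)) := by
  have h1 := rho_anti (vv i : Fin n ⊕ Fin n → F) (vv j)
  rw [← polar_plus, polar_vv h, zero_smul] at h1
  exact eq_neg_of_add_eq_zero_left h1

end LiftAux

theorem neg_mem_Us [Fintype F] (h2 : (2 : F) ≠ 0) (hn : 4 ≤ n) :
    ((1 : Omega F (quadFormPlus n F)), (-1 : GeneralLinearGroup (Bt n) F)) ∈ Us n F := by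
  have hQ := plusForm_nondeg (F := F) n
  have hcard : Fintype.card F ≠ 2 ∨ Fintype.card (Fin n ⊕ Fin n) ≠ 4 := by
    right
    simp
    omega
  let i1 : Fin n := ⟨0, by omega⟩
  let i2 : Fin n := ⟨1, by omega⟩
  let i3 : Fin n := ⟨2, by omega⟩
  have h12 : i1 ≠ i2 := by simp [i1, i2, Fin.ext_iff]
  have h23 : i2 ≠ i3 := by simp [i2, i3, Fin.ext_iff]
  have h13 : i1 ≠ i3 := by simp [i1, i3, Fin.ext_iff]
  -- the reflections
  let r : Fin n → isometryGroup F (⇑(QQ)) := fun i => reflEl (QQ) (vv i)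
  have hcomm : ∀ {i j : Fin n}, i ≠ j → Commute (r i) (r j) := by
    intro i j hij
    apply (toIso (QQ)).injective
    apply Subtype.ext
    simp only [map_mul, r, reflEl, MulEquiv.apply_symm_apply, Subgroup.coe_mul]
    exact refl_comm_of_ortho (QQ) (polar_vv hij)
  -- the two elements of `Ω`
  have hmem : ∀ {i j : Fin n}, (r i * r j) ∈ Omega F (⇑(QQ)) := by
    intro i j
    refine (word_mem_Omega_iff (QQ) hQ hcard (r i * r j) [vv i, vv j] ?_ ?_).mpr ⟨by simp, ?_⟩
    · intro v hv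
      simp only [List.mem_cons, List.not_mem_nil, or_false] at hv
      rcases hv with rfl | rfl <;> rw [Q_vv] <;> exact one_ne_zero
    · simp only [List.map_cons, List.map_nil, List.prod_cons, List.prod_nil, mul_one]
      rw [← reflEl_val, ← reflEl_val]
      rfl
    · simp only [List.map_cons, List.map_nil, List.prod_cons, List.prod_nil, mul_one, Q_vv]
      exact ⟨1, by simp⟩
  let ω : Fin n → Fin n → Omega F (quadFormPlus n F) := fun i j => ⟨r i * r j, hmem⟩
  have hvs : ∀ i j : Fin n, ∀ v ∈ [vv i, vv j], (QQ) v ≠ 0 := by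
    intro i j v hv
    simp only [List.mem_cons, List.not_mem_nil, or_false] at hv
    rcases hv with rfl | rfl <;> rw [Q_vv] <;> exact one_ne_zero
  have hlift : ∀ i j : Fin n, (ω i j, (isUnit_word [vv i, vv j] (hvs i j)).unit) ∈ Ut n F := by
    intro i j
    refine lift_of_word (ω i j) [vv i, vv j] (hvs i j) (by simp) ?_
    intro u
    have : ((iO (ω i j) : GeneralLinearGroup (Fin n ⊕ Fin n) F) : Matrix (Fin n ⊕ Fin n) (Fin n ⊕ Fin n) F) =
        ((reflEl (QQ) (vv i) : isometryGroup F (⇑(QQ))) : GeneralLinearGroup (Fin n ⊕ Fin n) F).val *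
          ((reflEl (QQ) (vv j) : isometryGroup F (⇑(QQ))) : GeneralLinearGroup (Fin n ⊕ Fin n) F).val := rfl
    rw [this, reflEl_val, reflEl_val, ← Matrix.mulVec_mulVec, reflectionMatrix_mulVec_eq,
      reflectionMatrix_mulVec_eq]
    simp
  have hc := Subgroup.commutator_mem_commutator (hlift i1 i2) (hlift i2 i3)
  convert hc using 1
  refine Prod.ext ?_ ?_
  · -- the `Ω` part
    have hC : Commute (ω i1 i2) (ω i2 i3) := by
      apply Subtype.ext
      exact Commute.mul_left (Commute.mul_right (hcomm h12) (hcomm h13))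
        (Commute.mul_right (Commute.refl _) (hcomm h23))
    exact (commutatorElement_eq_one_iff_commute.mpr hC).symm
  · -- the matrix part
    have ha : rho (vv i1 : Fin n ⊕ Fin n → F) * rho (vv i2) = -(rho (vv i2) * rho (vv i1)) := rho_vv_anti h12
    have hb : rho (vv i2 : Fin n ⊕ Fin n → F) * rho (vv i3) = -(rho (vv i3) * rho (vv i2)) := rho_vv_anti h23
    have hc' : rho (vv i3 : Fin n ⊕ Fin n → F) * rho (vv i1) = -(rho (vv i1) * rho (vv i3)) := rho_vv_anti h13.symm
    have hba : rho (vv i2 : Fin n ⊕ Fin n → F) * rho (vv i1) = -(rho (vv i1) * rho (vv i2)) := rho_vv_anti h12.symm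
    have hbb : rho (vv i2 : Fin n ⊕ Fin n → F) * rho (vv i2) = 1 := rho_vv_sq i2
    have key : rho (vv i1 : Fin n ⊕ Fin n → F) * rho (vv i2) * (rho (vv i2) * rho (vv i3)) =
        -(rho (vv i2) * rho (vv i3) * (rho (vv i1) * rho (vv i2))) := by
      generalize rho (vv i1 : Fin n ⊕ Fin n → F) = a at ha hc' hba
      generalize rho (vv i2 : Fin n ⊕ Fin n → F) = b at ha hb hba hbb
      generalize rho (vv i3 : Fin n ⊕ Fin n → F) = c at hb hc'
      have h1 : b * c * (a * b) = -(a * c) := by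
        calc b * c * (a * b) = b * (c * a) * b := by simp only [mul_assoc]
          _ = -((b * a) * c * b) := by rw [hc']; simp only [mul_neg, neg_mul, mul_assoc]
          _ = a * (b * c) * b := by rw [hba]; simp only [mul_neg, neg_mul, mul_assoc, neg_neg]
          _ = -(a * c * (b * b)) := by rw [hb]; simp only [mul_neg, neg_mul, mul_assoc]
          _ = -(a * c) := by rw [hbb, mul_one]
      rw [h1, neg_neg]
      calc a * b * (b * c) = a * (b * b) * c := by simp only [mul_assoc]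
        _ = a * c := by rw [hbb, mul_one]
    have hXY : (isUnit_word [vv i1, vv i2] (hvs i1 i2)).unit * (isUnit_word [vv i2, vv i3] (hvs i2 i3)).unit =
        (-1) * ((isUnit_word [vv i2, vv i3] (hvs i2 i3)).unit * (isUnit_word [vv i1, vv i2] (hvs i1 i2)).unit) := by
      apply Units.ext
      simp only [Units.val_mul, IsUnit.unit_spec, Units.val_neg, Units.val_one, List.map_cons, List.map_nil,
        List.prod_cons, List.prod_nil, mul_one, neg_mul, one_mul]
      exact key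
    change (-1 : GeneralLinearGroup (Bt n) F) = (isUnit_word [vv i1, vv i2] (hvs i1 i2)).unit *
      (isUnit_word [vv i2, vv i3] (hvs i2 i3)).unit * ((isUnit_word [vv i1, vv i2] (hvs i1 i2)).unit)⁻¹ *
      ((isUnit_word [vv i2, vv i3] (hvs i2 i3)).unit)⁻¹
    rw [hXY]
    simp [mul_assoc]

end spin

end Cfsg.Agent.Lib.OmStem
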