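import Cfsg.Agent.Lib.PresOm.Thm

/-!
# Commuting lifts and the flips of the hyperbolic basis (module A)

Matrix computations: `flipG A` swaps `e_i` and `f_i` for `i ∈ A` (block `fromBlocks (dg Aᶜ) (dg A) (dg A) (dg Aᶜ)`).
`levG (TT h t)` acts by `e_j ↦ e_j + t e_i`, `f_i ↦ f_i - t f_j`.
-/

set_option autoImplicit false

namespace Cfsg.Agent.Lib.OmStem

open Matrix Cfsg Subgroup Cfsg.Agent.Lib.PresOm Cfsg.Agent.Lib.PresSp.M2 Cfsg.Agent.Lib.PresSp.Mono
  Cfsg.Agent.Lib.PresSLn.TwoGen Cfsg.Agent.Lib.PresSp.Abs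


section CL

variable {Γ G : Type*} [Group Γ] [Group G]

/-- Two elements of the base have commuting lifts. -/
def CL (π : Γ →* G) (x y : G) : Prop := ∀ a b, π a = x → π b = y → Commute a b

variable {π : Γ →* G}

lemma CL.symm {x y : G} (h : CL π x y) : CL π y x := fun a b ha hb => (h b a hb ha).symm

lemma CL.of_commute (hc : π.ker ≤ center Γ) {a b : Γ} (h : Commute a b) : CL π (π a) (π b) := by
  intro a' b' ha hb
  have ka : a⁻¹ * a' ∈ π.ker := by
    rw [MonoidHom.mem_ker, map_mul, map_inv, ha, inv_mul_cancel]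
  have kb : b⁻¹ * b' ∈ π.ker := by
    rw [MonoidHom.mem_ker, map_mul, map_inv, hb, inv_mul_cancel]
  have ca := Subgroup.mem_center_iff.1 (hc ka)
  have cb := Subgroup.mem_center_iff.1 (hc kb)
  have ea : a' = a * (a⁻¹ * a') := by group
  have eb : b' = b * (b⁻¹ * b') := by group
  obtain ⟨k, hk⟩ : ∃ k, k = a⁻¹ * a' := ⟨_, rfl⟩
  obtain ⟨l, hl⟩ : ∃ l, l = b⁻¹ * b' := ⟨_, rfl⟩
  rw [← hk] at ea ca
  rw [← hl] at eb cb
  rw [ea, eb]
  have c1 : Commute k (b * l) := Commute.mul_right (ca b).symm (ca l).symm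
  have c2 : Commute a l := cb a
  exact Commute.mul_left (Commute.mul_right h c2) c1

lemma CL.mul_left (hc : π.ker ≤ center Γ) {x x' y : G} (hx : x ∈ π.range) (hx' : x' ∈ π.range)
    (h : CL π x y) (h' : CL π x' y) : CL π (x * x') y := by
  obtain ⟨a₀, ha₀⟩ := hx
  obtain ⟨a₁, ha₁⟩ := hx'
  intro a b ha hb
  have ka : (a₀ * a₁)⁻¹ * a ∈ π.ker := by
    rw [MonoidHom.mem_ker, map_mul, map_inv, ha, map_mul, ha₀, ha₁, inv_mul_cancel]
  have ca := Subgroup.mem_center_iff.1 (hc ka)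
  have ea : a = a₀ * a₁ * ((a₀ * a₁)⁻¹ * a) := by group
  rw [ea]
  refine Commute.mul_left (Commute.mul_left (h a₀ b ha₀ hb) (h' a₁ b ha₁ hb)) (ca b).symm

lemma CL.inv_left {x y : G} (h : CL π x y) : CL π x⁻¹ y := by
  intro a b ha hb
  have h1 : π a⁻¹ = x := by rw [map_inv, ha, inv_inv]
  have h2 := h a⁻¹ b h1 hb
  exact (Commute.inv_left_iff).1 h2

lemma CL.conj (hc : π.ker ≤ center Γ) {g x y : G} (hg : g ∈ π.range) (h : CL π x y) :
    CL π (g * x * g⁻¹) (g * y * g⁻¹) := by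
  obtain ⟨g₀, rfl⟩ := hg
  intro a b ha hb
  have h1 : π (g₀⁻¹ * a * g₀) = x := by
    rw [map_mul, map_mul, map_inv, ha]; group
  have h2 : π (g₀⁻¹ * b * g₀) = y := by
    rw [map_mul, map_mul, map_inv, hb]; group
  have h3 : (g₀⁻¹ * a * g₀) * (g₀⁻¹ * b * g₀) = (g₀⁻¹ * b * g₀) * (g₀⁻¹ * a * g₀) := h _ _ h1 h2
  have h4 : g₀⁻¹ * (a * b) * g₀ = g₀⁻¹ * (b * a) * g₀ := by
    calc g₀⁻¹ * (a * b) * g₀ = (g₀⁻¹ * a * g₀) * (g₀⁻¹ * b * g₀) := by group
      _ = (g₀⁻¹ * b * g₀) * (g₀⁻¹ * a * g₀) := h3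
      _ = _ := by group
  exact mul_left_cancel (mul_right_cancel h4)

end CL

section flip

variable {n : ℕ} {F : Type*} [Field F]

/-- The diagonal idempotent of a set of indices. -/
def dg (A : Finset (Fin n)) : Matrix (Fin n) (Fin n) F := diagonal fun i => if i ∈ A then 1 else 0

lemma dg_mul_dg (A B : Finset (Fin n)) : (dg A * dg B : Matrix (Fin n) (Fin n) F) = dg (A ∩ B) := by
  rw [dg, dg, dg, diagonal_mul_diagonal]
  congr 1
  funext i
  by_cases h1 : i ∈ A <;> by_cases h2 : i ∈ B <;> simp [h1, h2]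

lemma dg_add_compl (A : Finset (Fin n)) : (dg A + dg Aᶜ : Matrix (Fin n) (Fin n) F) = 1 := by
  rw [dg, dg, diagonal_add, ← diagonal_one]
  congr 1
  funext i
  by_cases h1 : i ∈ A <;> simp [h1]

lemma dg_empty : (dg ∅ : Matrix (Fin n) (Fin n) F) = 0 := by
  simp [dg]

lemma dg_univ : (dg Finset.univ : Matrix (Fin n) (Fin n) F) = 1 := by
  simp [dg]

lemma dg_mul_single (A : Finset (Fin n)) (i j : Fin n) (c : F) :
    (dg A * single i j c : Matrix (Fin n) (Fin n) F) = if i ∈ A then single i j c else 0 := by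
  ext r s
  rw [dg, diagonal_mul]
  by_cases h : i ∈ A
  · rw [if_pos h]
    by_cases hr : r = i
    · subst hr; simp [h]
    · simp [single_apply, hr, Ne.symm hr]
  · rw [if_neg h]
    by_cases hr : r = i
    · subst hr; simp [h]
    · simp [single_apply, hr, Ne.symm hr]

lemma single_mul_dg (A : Finset (Fin n)) (i j : Fin n) (c : F) :
    (single i j c * dg A : Matrix (Fin n) (Fin n) F) = if j ∈ A then single i j c else 0 := by
  ext r s
  rw [dg, mul_diagonal]
  by_cases h : j ∈ A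
  · rw [if_pos h]
    by_cases hr : s = j
    · subst hr; simp [h]
    · simp [single_apply, hr, Ne.symm hr]
  · rw [if_neg h]
    by_cases hr : s = j
    · subst hr; simp [h]
    · simp [single_apply, hr, Ne.symm hr]

lemma Lp_TT {i j : Fin n} (h : i ≠ j) (t : F) : Lp (TT h t) = 1 + single j i (-t) := by
  rw [Lp, ← TT_neg]
  change ((1 : Matrix (Fin n) (Fin n) F) + single i j (-t))ᵀ = _
  rw [transpose_add, transpose_one, transpose_single]

lemma flip_aux (A : Finset (Fin n)) :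
    (fromBlocks (dg Aᶜ) (dg A) (dg A) (dg Aᶜ) : Matrix (Fin n ⊕ Fin n) (Fin n ⊕ Fin n) F) *
      fromBlocks (dg Aᶜ) (dg A) (dg A) (dg Aᶜ) = 1 := by
  rw [fromBlocks_multiply, ← fromBlocks_one]
  have h1 : (dg Aᶜ * dg Aᶜ + dg A * dg A : Matrix (Fin n) (Fin n) F) = 1 := by
    rw [dg_mul_dg, dg_mul_dg, Finset.inter_self, Finset.inter_self, add_comm, dg_add_compl]
  have h2 : (dg Aᶜ * dg A + dg A * dg Aᶜ : Matrix (Fin n) (Fin n) F) = 0 := by
    rw [dg_mul_dg, dg_mul_dg, Finset.inter_comm Aᶜ, Finset.inter_compl]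
    simp [dg_empty]
  rw [h1, h2, add_comm (dg A * dg Aᶜ), h2, add_comm (dg A * dg A), h1]

/-- The isometry swapping `e_i` and `f_i` for `i ∈ A`. -/
def flipG (A : Finset (Fin n)) : GeneralLinearGroup (Fin n ⊕ Fin n) F :=
  ⟨fromBlocks (dg Aᶜ) (dg A) (dg A) (dg Aᶜ), fromBlocks (dg Aᶜ) (dg A) (dg A) (dg Aᶜ), flip_aux A, flip_aux A⟩

lemma flipG_inv (A : Finset (Fin n)) : (flipG A : GeneralLinearGroup _ F)⁻¹ = flipG A := rfl

lemma flipG_empty : (flipG ∅ : GeneralLinearGroup (Fin n ⊕ Fin n) F) = 1 := by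
  apply Units.ext
  change fromBlocks _ _ _ _ = _
  simp [dg_empty, dg_univ]

lemma flipG_mul (A B : Finset (Fin n)) : (flipG A * flipG B : GeneralLinearGroup (Fin n ⊕ Fin n) F) = flipG (symmDiff A B) := by
  apply Units.ext
  change fromBlocks _ _ _ _ * fromBlocks _ _ _ _ = fromBlocks _ _ _ _
  rw [fromBlocks_multiply]
  have e1 : (dg Aᶜ * dg Bᶜ + dg A * dg B : Matrix (Fin n) (Fin n) F) = dg (symmDiff A B)ᶜ := by
    rw [dg_mul_dg, dg_mul_dg, dg, dg, dg, diagonal_add]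
    congr 1
    funext i
    by_cases h1 : i ∈ A <;> by_cases h2 : i ∈ B <;> simp [h1, h2, Finset.mem_symmDiff]
  have e2 : (dg Aᶜ * dg B + dg A * dg Bᶜ : Matrix (Fin n) (Fin n) F) = dg (symmDiff A B) := by
    rw [dg_mul_dg, dg_mul_dg, dg, dg, dg, diagonal_add]
    congr 1
    funext i
    by_cases h1 : i ∈ A <;> by_cases h2 : i ∈ B <;> simp [h1, h2, Finset.mem_symmDiff]
  rw [e1, e2, add_comm (dg A * dg Bᶜ), e2, add_comm (dg A * dg B), e1]

lemma flipG_mem (A : Finset (Fin n)) : (flipG A : GeneralLinearGroup _ F) ∈ isometryGroup F (quadFormPlus n F) := by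
  intro u _
  change quadFormPlus n F (fromBlocks (dg Aᶜ) (dg A) (dg A) (dg Aᶜ) *ᵥ u) = quadFormPlus n F u
  rw [quadFormPlus, quadFormPlus]
  refine Finset.sum_congr rfl fun i _ => ?_
  rw [fromBlocks_mulVec]
  by_cases h : i ∈ A
  · simp [dg, mulVec_diagonal, h]
    ring
  · simp [dg, mulVec_diagonal, h]

/-- The blocks of a conjugated transvection. -/
lemma flip_lev_val (A : Finset (Fin n)) {i j : Fin n} (h : i ≠ j) (t : F) :
    ((flipG A * levG (TT h t) * (flipG A)⁻¹ : GeneralLinearGroup (Fin n ⊕ Fin n) F) : Matrix _ _ F) =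
      fromBlocks
        (1 + (if i ∉ A ∧ j ∉ A then single i j t else 0) + (if i ∈ A ∧ j ∈ A then single j i (-t) else 0))
        ((if i ∉ A ∧ j ∈ A then single i j t else 0) + (if i ∉ A ∧ j ∈ A then single j i (-t) else 0))
        ((if i ∈ A ∧ j ∉ A then single i j t else 0) + (if i ∈ A ∧ j ∉ A then single j i (-t) else 0))
        (1 + (if i ∈ A ∧ j ∈ A then single i j t else 0) + (if i ∉ A ∧ j ∉ A then single j i (-t) else 0)) := by
  rw [flipG_inv, Units.val_mul, Units.val_mul, coe_levG, Lp_TT]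
  change fromBlocks _ _ _ _ * fromBlocks _ _ _ _ * fromBlocks _ _ _ _ = _
  rw [fromBlocks_multiply, fromBlocks_multiply]
  have e : ((TT h t).1 : Matrix (Fin n) (Fin n) F) = 1 + single i j t := rfl
  rw [e]
  have hc : ∀ B : Finset (Fin n), (dg B * dg Bᶜ : Matrix (Fin n) (Fin n) F) = 0 := fun B => by
    rw [dg_mul_dg, Finset.inter_compl, dg_empty]
  have hc' : ∀ B : Finset (Fin n), (dg Bᶜ * dg B : Matrix (Fin n) (Fin n) F) = 0 := fun B => by
    rw [dg_mul_dg, Finset.inter_comm, Finset.inter_compl, dg_empty]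
  have hs : ∀ B : Finset (Fin n), (dg B * dg B : Matrix (Fin n) (Fin n) F) = dg B := fun B => by
    rw [dg_mul_dg, Finset.inter_self]
  have one : (dg A + dg Aᶜ : Matrix (Fin n) (Fin n) F) = 1 := dg_add_compl A
  have one' : (dg Aᶜ + dg A : Matrix (Fin n) (Fin n) F) = 1 := by rw [add_comm, one]
  simp only [mul_add, add_mul, mul_zero, zero_mul, add_zero, zero_add, mul_one, one_mul]
  simp only [mul_assoc, dg_mul_single, single_mul_dg, hc, hc', hs, mul_ite, ite_mul, mul_zero, zero_mul]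
  by_cases hi : i ∈ A <;> by_cases hj : j ∈ A <;>
    simp [hi, hj, dg_mul_single, single_mul_dg, hc, hc', hs]
  · exact ⟨by rw [← add_assoc, one'], by rw [add_right_comm, one]⟩
  · exact ⟨one', one⟩
  · exact ⟨one', one⟩
  · exact ⟨by rw [add_right_comm, one'], by rw [← add_assoc, one]⟩

lemma flip_out {i j : Fin n} (h : i ≠ j) (t : F) {A : Finset (Fin n)} (hi : i ∉ A) (hj : j ∉ A) :
    flipG A * levG (TT h t) * (flipG A)⁻¹ = levG (TT h t) := by
  apply Units.ext
  rw [flip_lev_val, coe_levG, Lp_TT]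
  simp [hi, hj]
  rfl

lemma flip_up {i j : Fin n} (h : i ≠ j) (t : F) {A : Finset (Fin n)} (hi : i ∉ A) (hj : j ∈ A) :
    flipG A * levG (TT h t) * (flipG A)⁻¹ = upG (Kz i j t) := by
  apply Units.ext
  rw [flip_lev_val, coe_upG, Kz]
  simp [hi, hj, sneg, sub_eq_add_neg]

lemma flip_low {i j : Fin n} (h : i ≠ j) (t : F) {A : Finset (Fin n)} (hi : i ∈ A) (hj : j ∉ A) :
    flipG A * levG (TT h t) * (flipG A)⁻¹ = lowG (Kz i j t) := by
  apply Units.ext
  rw [flip_lev_val, coe_lowG, Kz]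
  simp [hi, hj, sneg, sub_eq_add_neg]

lemma flip_univ_lev {i j : Fin n} (h : i ≠ j) (t : F) :
    flipG Finset.univ * levG (TT h t) * (flipG Finset.univ)⁻¹ = levG (TT h.symm (-t)) := by
  apply Units.ext
  rw [flip_lev_val, coe_levG, Lp_TT]
  simp
  rfl

lemma flip_univ_up (S : Matrix (Fin n) (Fin n) F) :
    flipG Finset.univ * upG S * (flipG Finset.univ)⁻¹ = lowG S := by
  apply Units.ext
  rw [flipG_inv, Units.val_mul, Units.val_mul, coe_upG, coe_lowG]
  change fromBlocks _ _ _ _ * fromBlocks _ _ _ _ * fromBlocks _ _ _ _ = _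
  rw [fromBlocks_multiply, fromBlocks_multiply]
  simp [dg_empty, dg_univ]

end flip

section sec

variable {n : ℕ} {F : Type*} [Field F] {Γ : Type*} [Group Γ]

/-- A central extension in which all the flipped Levi subgroups lift. -/
structure FlipSec (π : Γ →* GeneralLinearGroup (Fin n ⊕ Fin n) F) : Prop where
  central : π.ker ≤ center Γ
  sec : ∀ A : Finset (Fin n), ∃ lamA : SpecialLinearGroup (Fin n) F →* Γ,
    ∀ l, π (lamA l) = flipG A * levG l * (flipG A)⁻¹

end sec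

end Cfsg.Agent.Lib.OmStem
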