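import Mathlib
import Cfsg.Prelude.Def_Classical

/-!
# The Fock space of the hyperbolic quadratic space (module D)

Basis of the space: `b : Fin n → Bool`. `(a†_i φ)(b) = [b_i] σ(b,i) φ(b \ i)`, `(a_i φ)(b) = [¬b_i] σ(b,i) φ(b ∪ i)`,
`σ(b,i) = (-1)^#{j < i, b_j}` (matrix form below, `ann = creᵀ`). Relations: `a†_i a†_j + a†_j a†_i = 0`, `a_i a_j + a_j a_i = 0`, `a†_i a_j + a_j a†_i = δ_ij`.
`scalar_of_comm`: `A` commutes with `a_i`, so `A δ_∅` is killed by all `a_i` and is `c δ_∅`; `δ_b = ± ∏ a†_i δ_∅`, so `A = c`.
`exists_form`: `B_{b,c} = [c = ¬b] ε(b)`, `ε(b) = (-1)^{∑_{i ∈ b} i}`, makes `a†_i, a_i` self-adjoint (check: `ε(b ∪ i) = ε(b) (-1)^i`, `σ(¬b,i) = (-1)^i σ(b,i)`).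
Alternative for `exists_form` without signs: `(rho v)ᵀ = rho (swap v)` and `B = ∏_i rho (e_i - f_i) * gam^n`.
-/

set_option autoImplicit false

namespace Cfsg.Agent.Lib.OmStem

open Matrix Cfsg

section fock

variable {n : ℕ} (F : Type*) [Field F]

/-- The index set of the Fock basis. -/
abbrev Bt (n : ℕ) := Fin n → Bool

/-- The matrices acting on the Fock space. -/
abbrev MS (n : ℕ) (F : Type*) := Matrix (Bt n) (Bt n) F

/-- The Jordan-Wigner sign. -/
def jw (b : Bt n) (i : Fin n) : F := (-1) ^ (Finset.univ.filter fun j : Fin n => j < i ∧ b j = true).card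

/-- The creation operators: `(a†_i φ)(b) = [b_i] σ(b,i) φ(b with b_i cleared)`. -/
def cre (i : Fin n) : MS n F :=
  Matrix.of fun b c => if b i = true ∧ c = Function.update b i false then jw F b i else 0

/-- The annihilation operators. -/
def ann (i : Fin n) : MS n F := (cre F i)ᵀ

variable {F}

/-- The Clifford map of the hyperbolic space. -/
def rho (v : Fin n ⊕ Fin n → F) : MS n F := ∑ i, (v (Sum.inl i) • cre F i + v (Sum.inr i) • ann F i)

variable (F) in
/-- The parity operator. -/
def gam : MS n F := diagonal fun b => (-1) ^ (Finset.univ.filter fun j : Fin n => b j = true).card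


open Function in
lemma jw_mul_self (b : Bt n) (i : Fin n) : jw F b i * jw F b i = 1 := by
  unfold jw
  rw [← mul_pow]
  simp

lemma jw_update_of_le (b : Bt n) {i k : Fin n} (h : i ≤ k) (x : Bool) :
    jw F (Function.update b k x) i = jw F b i := by
  unfold jw
  congr 2
  apply Finset.filter_congr
  intro j _
  constructor
  · rintro ⟨hj, hb⟩
    rw [Function.update_of_ne (ne_of_lt (lt_of_lt_of_le hj h))] at hb
    exact ⟨hj, hb⟩
  · rintro ⟨hj, hb⟩
    refine ⟨hj, ?_⟩
    rwa [Function.update_of_ne (ne_of_lt (lt_of_lt_of_le hj h))]

lemma jw_update_false (b : Bt n) {i k : Fin n} (h : k < i) (hb : b k = true) :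
    jw F (Function.update b k false) i = - jw F b i := by
  have h1 : (Finset.univ.filter fun j : Fin n => j < i ∧ b j = true) =
      insert k (Finset.univ.filter fun j : Fin n => j < i ∧ Function.update b k false j = true) := by
    ext j
    simp only [Finset.mem_filter, Finset.mem_univ, true_and, Finset.mem_insert]
    by_cases hj : j = k
    · subst hj
      simp [h, hb]
    · simp [hj, Function.update_of_ne hj]
  have h2 : k ∉ (Finset.univ.filter fun j : Fin n => j < i ∧ Function.update b k false j = true) := by
    simp
  unfold jw
  rw [h1, Finset.card_insert_of_notMem h2, pow_succ]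
  ring

lemma jw_update_true (b : Bt n) {i k : Fin n} (h : k < i) (hb : b k = false) :
    jw F (Function.update b k true) i = - jw F b i := by
  have h1 := jw_update_false (F := F) (Function.update b k true) h (by simp)
  rw [Function.update_idem, Function.update_eq_self_iff.2 hb.symm] at h1
  rw [h1, neg_neg]

lemma cre_apply (i : Fin n) (b c : Bt n) :
    cre F i b c = if b i = true ∧ c = Function.update b i false then jw F b i else 0 := rfl

lemma ann_apply (i : Fin n) (b c : Bt n) :
    ann F i b c = if c i = true ∧ b = Function.update c i false then jw F c i else 0 := rfl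

lemma cre_mul_apply (i : Fin n) (M : MS n F) (b c : Bt n) :
    (cre F i * M) b c = if b i = true then jw F b i * M (Function.update b i false) c else 0 := by
  rw [Matrix.mul_apply]
  by_cases hb : b i = true
  · rw [if_pos hb, Finset.sum_eq_single (Function.update b i false)]
    · simp [cre_apply, hb]
    · intro d _ hd
      simp [cre_apply, hd]
    · simp
  · rw [if_neg hb]
    apply Finset.sum_eq_zero
    intro d _
    simp [cre_apply, hb]

lemma ann_mul_apply (i : Fin n) (M : MS n F) (b c : Bt n) :
    (ann F i * M) b c = if b i = false then jw F b i * M (Function.update b i true) c else 0 := by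
  rw [Matrix.mul_apply]
  by_cases hb : b i = false
  · rw [if_pos hb, Finset.sum_eq_single (Function.update b i true)]
    · have e : Function.update (Function.update b i true) i false = b := by
        rw [Function.update_idem, Function.update_eq_self_iff.2 hb.symm]
      rw [ann_apply, if_pos ⟨by simp, e.symm⟩, jw_update_of_le b (le_refl i)]
    · intro d _ hd
      rw [ann_apply, if_neg, zero_mul]
      rintro ⟨h1, h2⟩
      apply hd
      rw [h2, Function.update_idem, Function.update_eq_self_iff.2 h1.symm]
    · simp
  · rw [if_neg hb]
    apply Finset.sum_eq_zero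
    intro d _
    rw [ann_apply, if_neg, zero_mul]
    rintro ⟨h1, h2⟩
    apply hb
    rw [h2]
    simp

lemma mul_ann_apply (i : Fin n) (M : MS n F) (b c : Bt n) :
    (M * ann F i) b c = if c i = true then jw F c i * M b (Function.update c i false) else 0 := by
  have h : (M * ann F i) b c = (cre F i * Mᵀ) c b := by
    rw [ann, ← Matrix.transpose_transpose (cre F i * Mᵀ), Matrix.transpose_mul, Matrix.transpose_transpose]
    rfl
  rw [h, cre_mul_apply]
  rfl

lemma mul_cre_apply (i : Fin n) (M : MS n F) (b c : Bt n) :
    (M * cre F i) b c = if c i = false then jw F c i * M b (Function.update c i true) else 0 := by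
  have h : (M * cre F i) b c = (ann F i * Mᵀ) c b := by
    rw [ann, ← Matrix.transpose_mul]
    rfl
  rw [h, ann_mul_apply]
  rfl

theorem cre_mul_cre_self (i : Fin n) : cre F i * cre F i = 0 := by
  ext b c
  rw [cre_mul_apply]
  split_ifs with hb
  · simp [cre_apply]
  · simp

theorem cre_anti_of_lt {i j : Fin n} (h : i < j) : cre F i * cre F j + cre F j * cre F i = 0 := by
  ext b c
  have hij : i ≠ j := ne_of_lt h
  rw [Matrix.add_apply, cre_mul_apply, cre_mul_apply, cre_apply, cre_apply, Matrix.zero_apply]
  by_cases hi : b i = true
  · by_cases hj : b j = true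
    · have e1 : Function.update b i false j = b j := Function.update_of_ne hij.symm _ _
      have e2 : Function.update b j false i = b i := Function.update_of_ne hij _ _
      simp only [hi, hj, e1, e2, if_true, true_and]
      rw [Function.update_comm hij.symm false false b]
      by_cases hc : c = Function.update (Function.update b i false) j false
      · rw [if_pos hc, if_pos hc, jw_update_false b h hi, jw_update_of_le b h.le]
        ring
      · simp [hc]
    · have e1 : Function.update b i false j = b j := Function.update_of_ne hij.symm _ _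
      simp [hj, e1]
  · by_cases hj : b j = true
    · have e2 : Function.update b j false i = b i := Function.update_of_ne hij _ _
      simp [hi, e2]
    · simp [hi, hj]

theorem cre_anti (i j : Fin n) : cre F i * cre F j + cre F j * cre F i = 0 := by
  rcases lt_trichotomy i j with h | h | h
  · exact cre_anti_of_lt h
  · subst h
    simp [cre_mul_cre_self]
  · rw [add_comm]
    exact cre_anti_of_lt h

theorem ann_anti (i j : Fin n) : ann F i * ann F j + ann F j * ann F i = 0 := by
  have := congrArg Matrix.transpose (cre_anti (F := F) j i)
  rw [Matrix.transpose_add, Matrix.transpose_mul, Matrix.transpose_mul, Matrix.transpose_zero] at this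
  exact this

theorem ann_mul_ann_self (i : Fin n) : ann F i * ann F i = 0 := by
  have := congrArg Matrix.transpose (cre_mul_cre_self (F := F) i)
  rw [Matrix.transpose_mul, Matrix.transpose_zero] at this
  exact this

theorem cre_ann_self (i : Fin n) : cre F i * ann F i + ann F i * cre F i = 1 := by
  ext b c
  rw [Matrix.add_apply, cre_mul_apply, ann_mul_apply, ann_apply, cre_apply, Matrix.one_apply]
  by_cases hi : b i = true
  · have hif : ¬ b i = false := by simp [hi]
    rw [if_pos hi, if_neg hif, add_zero]
    by_cases hbc : b = c
    · subst hbc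
      rw [if_pos rfl, if_pos ⟨hi, rfl⟩, jw_mul_self]
    · rw [if_neg hbc, if_neg, mul_zero]
      rintro ⟨h1, h2⟩
      apply hbc
      funext k
      by_cases hk : k = i
      · subst hk
        rw [hi, h1]
      · have := congrFun h2 k
        rwa [Function.update_of_ne hk, Function.update_of_ne hk] at this
  · have hif : b i = false := by simpa using hi
    rw [if_neg hi, if_pos hif, zero_add]
    have e : Function.update (Function.update b i true) i false = b := by
      rw [Function.update_idem, Function.update_eq_self_iff.2 hif.symm]
    by_cases hbc : b = c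
    · subst hbc
      rw [if_pos rfl, if_pos ⟨by simp, e.symm⟩, jw_update_of_le b (le_refl i), jw_mul_self]
    · rw [if_neg hbc, if_neg, mul_zero]
      rintro ⟨h1, h2⟩
      apply hbc
      rw [h2, e]

theorem cre_ann_of_lt {i j : Fin n} (h : i < j) : cre F i * ann F j + ann F j * cre F i = 0 := by
  have hij : i ≠ j := ne_of_lt h
  ext b c
  rw [Matrix.add_apply, cre_mul_apply, ann_mul_apply, ann_apply, cre_apply, Matrix.zero_apply]
  by_cases hc : b i = true ∧ b j = false ∧ c = Function.update (Function.update b j true) i false
  · obtain ⟨h1, h2, rfl⟩ := hc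
    have e1 : Function.update (Function.update b j true) i false j = true := by
      rw [Function.update_of_ne hij.symm]; simp
    have e2 : Function.update (Function.update (Function.update b j true) i false) j false = Function.update b i false := by
      funext k
      by_cases hk : k = j
      · subst hk
        simp [Function.update_of_ne hij.symm, h2]
      · by_cases hk' : k = i
        · subst hk'
          simp [hk]
        · simp [hk, hk']
    have e3 : Function.update b j true i = true := by
      rw [Function.update_of_ne hij]; exact h1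
    rw [if_pos h1, if_pos h2, if_pos ⟨e1, e2.symm⟩, if_pos ⟨e3, rfl⟩]
    rw [show jw F (Function.update (Function.update b j true) i false) j = - jw F (Function.update b j true) j from
      jw_update_false _ h e3, jw_update_of_le b (le_refl j), jw_update_of_le b h.le]
    ring
  · have h1 : ¬ (b i = true ∧ c j = true ∧ Function.update b i false = Function.update c j false) := by
      rintro ⟨h1, h2, h3⟩
      apply hc
      have h4 : b j = false := by
        have := congrFun h3 j
        rwa [Function.update_of_ne hij.symm, Function.update_self] at this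
      refine ⟨h1, h4, ?_⟩
      funext k
      by_cases hk : k = i
      · subst hk
        have := congrFun h3 k
        rw [Function.update_self, Function.update_of_ne hij] at this
        rw [Function.update_self, ← this]
      · rw [Function.update_of_ne hk]
        by_cases hk' : k = j
        · subst hk'
          rw [Function.update_self, h2]
        · rw [Function.update_of_ne hk']
          have := congrFun h3 k
          rw [Function.update_of_ne hk, Function.update_of_ne hk'] at this
          exact this.symm
    have h2 : ¬ (b j = false ∧ Function.update b j true i = true ∧ c = Function.update (Function.update b j true) i false) := by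
      rintro ⟨h2, h3, h4⟩
      apply hc
      rw [Function.update_of_ne hij] at h3
      exact ⟨h3, h2, h4⟩
    by_cases hbi : b i = true
    · by_cases hbj : b j = false
      · rw [if_pos hbi, if_pos hbj, if_neg (fun hh => h1 ⟨hbi, hh.1, hh.2⟩), if_neg (fun hh => h2 ⟨hbj, hh.1, hh.2⟩)]
        simp
      · rw [if_pos hbi, if_neg hbj, if_neg (fun hh => h1 ⟨hbi, hh.1, hh.2⟩)]
        simp
    · by_cases hbj : b j = false
      · rw [if_neg hbi, if_pos hbj, if_neg (fun hh => h2 ⟨hbj, hh.1, hh.2⟩)]
        simp
      · rw [if_neg hbi, if_neg hbj]
        simp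

theorem cre_ann_of_gt {i j : Fin n} (h : j < i) : cre F i * ann F j + ann F j * cre F i = 0 := by
  have hij : j ≠ i := ne_of_lt h
  ext b c
  rw [Matrix.add_apply, cre_mul_apply, ann_mul_apply, ann_apply, cre_apply, Matrix.zero_apply]
  by_cases hc : b i = true ∧ b j = false ∧ c = Function.update (Function.update b j true) i false
  · obtain ⟨h1, h2, rfl⟩ := hc
    have e1 : Function.update (Function.update b j true) i false j = true := by
      rw [Function.update_of_ne hij]; simp
    have e2 : Function.update (Function.update (Function.update b j true) i false) j false = Function.update b i false := by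
      funext k
      by_cases hk : k = j
      · subst hk
        simp [Function.update_of_ne hij, h2]
      · by_cases hk' : k = i
        · subst hk'
          simp [hk]
        · simp [hk, hk']
    have e3 : Function.update b j true i = true := by
      rw [Function.update_of_ne hij.symm]; exact h1
    rw [if_pos h1, if_pos h2, if_pos ⟨e1, e2.symm⟩, if_pos ⟨e3, rfl⟩]
    rw [jw_update_of_le (Function.update b j true) h.le, jw_update_of_le b (le_refl j), jw_update_true b h h2]
    ring
  · have h1 : ¬ (b i = true ∧ c j = true ∧ Function.update b i false = Function.update c j false) := by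
      rintro ⟨h1, h2, h3⟩
      apply hc
      have h4 : b j = false := by
        have := congrFun h3 j
        rwa [Function.update_of_ne hij, Function.update_self] at this
      refine ⟨h1, h4, ?_⟩
      funext k
      by_cases hk : k = i
      · subst hk
        have := congrFun h3 k
        rw [Function.update_self, Function.update_of_ne hij.symm] at this
        rw [Function.update_self, ← this]
      · rw [Function.update_of_ne hk]
        by_cases hk' : k = j
        · subst hk'
          rw [Function.update_self, h2]
        · rw [Function.update_of_ne hk']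
          have := congrFun h3 k
          rw [Function.update_of_ne hk, Function.update_of_ne hk'] at this
          exact this.symm
    have h2 : ¬ (b j = false ∧ Function.update b j true i = true ∧ c = Function.update (Function.update b j true) i false) := by
      rintro ⟨h2, h3, h4⟩
      apply hc
      rw [Function.update_of_ne hij.symm] at h3
      exact ⟨h3, h2, h4⟩
    by_cases hbi : b i = true
    · by_cases hbj : b j = false
      · rw [if_pos hbi, if_pos hbj, if_neg (fun hh => h1 ⟨hbi, hh.1, hh.2⟩), if_neg (fun hh => h2 ⟨hbj, hh.1, hh.2⟩)]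
        simp
      · rw [if_pos hbi, if_neg hbj, if_neg (fun hh => h1 ⟨hbi, hh.1, hh.2⟩)]
        simp
    · by_cases hbj : b j = false
      · rw [if_neg hbi, if_pos hbj, if_neg (fun hh => h2 ⟨hbj, hh.1, hh.2⟩)]
        simp
      · rw [if_neg hbi, if_neg hbj]
        simp

theorem cre_ann (i j : Fin n) : cre F i * ann F j + ann F j * cre F i = if i = j then 1 else 0 := by
  rcases lt_trichotomy i j with h | h | h
  · rw [if_neg (ne_of_lt h)]
    exact cre_ann_of_lt h
  · subst h
    rw [if_pos rfl]
    exact cre_ann_self i

  · rw [if_neg (ne_of_gt h)]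
    exact cre_ann_of_gt h

/-- The summands of the Clifford map. -/
def ci (v : Fin n ⊕ Fin n → F) (i : Fin n) : MS n F := v (Sum.inl i) • cre F i + v (Sum.inr i) • ann F i

lemma rho_eq (v : Fin n ⊕ Fin n → F) : rho v = ∑ i, ci v i := rfl

lemma ci_anti (u v : Fin n ⊕ Fin n → F) (i j : Fin n) :
    ci u i * ci v j + ci v j * ci u i =
      (if i = j then (u (Sum.inl i) * v (Sum.inr i) + u (Sum.inr i) * v (Sum.inl i)) else 0) • (1 : MS n F) := by
  have key : ci u i * ci v j + ci v j * ci u i =
      (u (Sum.inl i) * v (Sum.inl j)) • (cre F i * cre F j + cre F j * cre F i) +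
      (u (Sum.inl i) * v (Sum.inr j)) • (cre F i * ann F j + ann F j * cre F i) +
      (u (Sum.inr i) * v (Sum.inl j)) • (cre F j * ann F i + ann F i * cre F j) +
      (u (Sum.inr i) * v (Sum.inr j)) • (ann F i * ann F j + ann F j * ann F i) := by
    simp only [ci, add_mul, mul_add, smul_mul_assoc, mul_smul_comm, smul_add, smul_smul]
    simp only [mul_comm (v _) (u _)]
    abel
  rw [key, cre_anti, ann_anti, cre_ann, cre_ann]
  by_cases hij : i = j
  · subst hij
    simp [add_smul]
  · simp [hij, Ne.symm hij]

lemma ci_sq (v : Fin n ⊕ Fin n → F) (i : Fin n) :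
    ci v i * ci v i = (v (Sum.inl i) * v (Sum.inr i)) • (1 : MS n F) := by
  have key : ci v i * ci v i =
      (v (Sum.inl i) * v (Sum.inl i)) • (cre F i * cre F i) +
      (v (Sum.inl i) * v (Sum.inr i)) • (cre F i * ann F i + ann F i * cre F i) +
      (v (Sum.inr i) * v (Sum.inr i)) • (ann F i * ann F i) := by
    simp only [ci, add_mul, mul_add, smul_mul_assoc, mul_smul_comm, smul_add, smul_smul]
    simp only [mul_comm (v (Sum.inr i)) (v (Sum.inl i))]
    abel
  rw [key, cre_mul_cre_self, ann_mul_ann_self, cre_ann_self]
  simp

lemma sum_sq_of_anti {R ι : Type*} [Ring R] (s : Finset ι) (c : ι → R)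
    (h : ∀ i ∈ s, ∀ j ∈ s, i ≠ j → c i * c j + c j * c i = 0) :
    (∑ i ∈ s, c i) * (∑ i ∈ s, c i) = ∑ i ∈ s, c i * c i := by
  classical
  induction s using Finset.induction_on with
  | empty => simp
  | insert a s ha ih =>
    rw [Finset.sum_insert ha, Finset.sum_insert ha]
    have h1 : c a * ∑ i ∈ s, c i + (∑ i ∈ s, c i) * c a = 0 := by
      rw [Finset.mul_sum, Finset.sum_mul, ← Finset.sum_add_distrib]
      exact Finset.sum_eq_zero fun i hi =>
        h a (Finset.mem_insert_self _ _) i (Finset.mem_insert_of_mem hi) (by rintro rfl; exact ha hi)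
    have ih' := ih (fun i hi j hj => h i (Finset.mem_insert_of_mem hi) j (Finset.mem_insert_of_mem hj))
    calc (c a + ∑ i ∈ s, c i) * (c a + ∑ i ∈ s, c i)
        = c a * c a + (c a * ∑ i ∈ s, c i + (∑ i ∈ s, c i) * c a) + (∑ i ∈ s, c i) * (∑ i ∈ s, c i) := by
          noncomm_ring
      _ = _ := by rw [h1, ih', add_zero]

lemma rho_add (u v : Fin n ⊕ Fin n → F) : rho (u + v) = rho u + rho v := by
  simp only [rho, Pi.add_apply, add_smul, ← Finset.sum_add_distrib]
  exact Finset.sum_congr rfl fun i _ => by abel

lemma rho_smul (c : F) (v : Fin n ⊕ Fin n → F) : rho (c • v) = c • rho v := by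
  simp only [rho, Pi.smul_apply, smul_eq_mul, Finset.smul_sum, smul_add, mul_smul]

theorem rho_sq (v : Fin n ⊕ Fin n → F) : rho v * rho v = quadFormPlus n F v • (1 : MS n F) := by
  rw [rho_eq, sum_sq_of_anti]
  · simp only [ci_sq, ← Finset.sum_smul]
    rfl
  · intro i _ j _ hij
    rw [ci_anti, if_neg hij, zero_smul]

theorem rho_anti (u v : Fin n ⊕ Fin n → F) :
    rho u * rho v + rho v * rho u = (∑ i, (u (Sum.inl i) * v (Sum.inr i) + u (Sum.inr i) * v (Sum.inl i))) • (1 : MS n F) := by
  rw [rho_eq, rho_eq, Finset.sum_mul_sum, Finset.sum_mul_sum, Finset.sum_comm (f := fun i j => ci v i * ci u j), ← Finset.sum_add_distrib]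
  simp only [← Finset.sum_add_distrib, ci_anti, ← Finset.sum_smul]
  congr 1
  refine Finset.sum_congr rfl fun i _ => ?_
  simp

lemma rho_single_inl (i : Fin n) : rho (Pi.single (Sum.inl i) 1 : Fin n ⊕ Fin n → F) = cre F i := by
  rw [rho, Finset.sum_eq_single i]
  · simp
  · intro j _ hj
    simp [Pi.single_apply, hj]
  · simp

lemma rho_single_inr (i : Fin n) : rho (Pi.single (Sum.inr i) 1 : Fin n ⊕ Fin n → F) = ann F i := by
  rw [rho, Finset.sum_eq_single i]
  · simp
  · intro j _ hj
    simp [Pi.single_apply, hj]
  · simp

/-- A matrix commuting with the Clifford map is scalar. -/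
theorem scalar_of_comm {A : MS n F} (h : ∀ v, A * rho v = rho v * A) : ∃ c : F, A = c • (1 : MS n F) := by
  have hc : ∀ i, A * cre F i = cre F i * A := fun i => by
    have := h (Pi.single (Sum.inl i) 1)
    rwa [rho_single_inl] at this
  have ha : ∀ i, A * ann F i = ann F i * A := fun i => by
    have := h (Pi.single (Sum.inr i) 1)
    rwa [rho_single_inr] at this
  -- `A` commutes with the number operators
  have hP : ∀ (i : Fin n) (b c : Bt n), c i = b i ∨ A b c = 0 := by
    intro i b c
    have h1 : (A * (cre F i * ann F i)) b c = ((cre F i * ann F i) * A) b c := by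
      rw [← Matrix.mul_assoc, hc, Matrix.mul_assoc, ha, Matrix.mul_assoc]
    have h2 : ((cre F i * ann F i) * A) b c = if b i = true then A b c else 0 := by
      rw [Matrix.mul_assoc, cre_mul_apply, ann_mul_apply]
      by_cases hb : b i = true
      · have e : Function.update (Function.update b i false) i true = b := by
          rw [Function.update_idem, Function.update_eq_self_iff.2 hb.symm]
        rw [if_pos hb, if_pos hb, if_pos (by simp), e, jw_update_of_le b (le_refl i), ← mul_assoc, jw_mul_self, one_mul]
      · rw [if_neg hb, if_neg hb]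
    have h3 : (A * (cre F i * ann F i)) b c = if c i = true then A b c else 0 := by
      rw [← Matrix.mul_assoc, mul_ann_apply, mul_cre_apply]
      by_cases hb : c i = true
      · have e : Function.update (Function.update c i false) i true = c := by
          rw [Function.update_idem, Function.update_eq_self_iff.2 hb.symm]
        rw [if_pos hb, if_pos hb, if_pos (by simp), e, jw_update_of_le c (le_refl i), ← mul_assoc, jw_mul_self, one_mul]
      · rw [if_neg hb, if_neg hb]
    rw [h2, h3] at h1
    by_cases h4 : c i = b i
    · exact Or.inl h4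
    · right
      cases h5 : b i <;> cases h6 : c i <;> simp_all
  have hdiag : ∀ b c : Bt n, b ≠ c → A b c = 0 := by
    intro b c hbc
    by_contra h0
    apply hbc
    funext i
    rcases hP i b c with h1 | h1
    · exact h1.symm
    · exact absurd h1 h0
  have hstep : ∀ (b : Bt n) (i : Fin n), b i = true → A (Function.update b i false) (Function.update b i false) = A b b := by
    intro b i hb
    have h1 : (A * cre F i) b (Function.update b i false) = (cre F i * A) b (Function.update b i false) := by rw [hc]
    have e : Function.update (Function.update b i false) i true = b := by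
      rw [Function.update_idem, Function.update_eq_self_iff.2 hb.symm]
    rw [mul_cre_apply, cre_mul_apply, if_pos (by simp), if_pos hb, e, jw_update_of_le b (le_refl i)] at h1
    have h2 := congrArg (fun x => jw F b i * x) h1
    simp only [← mul_assoc, jw_mul_self, one_mul] at h2
    exact h2.symm
  have hall : ∀ s : Finset (Fin n), A (fun i => decide (i ∈ s)) (fun i => decide (i ∈ s)) = A (fun _ => false) (fun _ => false) := by
    intro s
    induction s using Finset.induction_on with
    | empty => simp
    | insert a s ha' ih =>
      rw [← ih, ← hstep (fun i => decide (i ∈ insert a s)) a (by simp)]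
      congr 1 <;>
      · funext k
        by_cases hk : k = a
        · subst hk
          simp [ha']
        · simp [hk]
  refine ⟨A (fun _ => false) (fun _ => false), ?_⟩
  ext b c
  rw [Matrix.smul_apply, Matrix.one_apply, smul_eq_mul]
  by_cases hbc : b = c
  · subst hbc
    rw [if_pos rfl, mul_one]
    have h1 := hall (Finset.univ.filter fun i => b i = true)
    have h2 : (fun i => decide (i ∈ Finset.univ.filter fun i => b i = true)) = b := by
      funext k
      by_cases hk : b k = true <;> simp [hk]
    rwa [h2] at h1
  · rw [if_neg hbc, mul_zero]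
    exact hdiag b c hbc

lemma sgn_update_false (b : Bt n) {i : Fin n} (hb : b i = true) :
    ((-1 : F) ^ (Finset.univ.filter fun j : Fin n => Function.update b i false j = true).card) =
      - (-1 : F) ^ (Finset.univ.filter fun j : Fin n => b j = true).card := by
  have h1 : (Finset.univ.filter fun j : Fin n => b j = true) =
      insert i (Finset.univ.filter fun j : Fin n => Function.update b i false j = true) := by
    ext j
    simp only [Finset.mem_filter, Finset.mem_univ, true_and, Finset.mem_insert]
    by_cases hj : j = i
    · subst hj
      simp [hb]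
    · simp [hj, Function.update_of_ne hj]
  have h2 : i ∉ (Finset.univ.filter fun j : Fin n => Function.update b i false j = true) := by
    simp
  rw [h1, Finset.card_insert_of_notMem h2, pow_succ]
  ring

theorem gam_cre (i : Fin n) : gam F * cre F i = -(cre F i * gam F) := by
  ext b c
  rw [Matrix.neg_apply, gam, Matrix.diagonal_mul, Matrix.mul_diagonal, cre_apply]
  by_cases h : b i = true ∧ c = Function.update b i false
  · obtain ⟨h1, rfl⟩ := h
    rw [if_pos ⟨h1, rfl⟩, sgn_update_false b h1]
    ring
  · rw [if_neg h]
    simp

theorem gam_ann (i : Fin n) : gam F * ann F i = -(ann F i * gam F) := by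
  ext b c
  rw [Matrix.neg_apply, gam, Matrix.diagonal_mul, Matrix.mul_diagonal, ann_apply]
  by_cases h : c i = true ∧ b = Function.update c i false
  · obtain ⟨h1, rfl⟩ := h
    rw [if_pos ⟨h1, rfl⟩, sgn_update_false c h1]
    ring
  · rw [if_neg h]
    simp

/-- The complement of a basis label. -/
def cpl (b : Bt n) : Bt n := fun j => !(b j)

lemma cpl_cpl (b : Bt n) : cpl (cpl b) = b := by
  funext j
  simp [cpl]

lemma cpl_update (b : Bt n) (i : Fin n) (x : Bool) : cpl (Function.update b i x) = Function.update (cpl b) i (!x) := by
  funext j
  by_cases hj : j = i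
  · subst hj
    simp [cpl]
  · simp [cpl, hj]

lemma cpl_inj {b c : Bt n} (h : cpl b = cpl c) : b = c := by
  rw [← cpl_cpl b, h, cpl_cpl]

/-- The sign of the form. -/
def eps (b : Bt n) : F := ∏ j : Fin n, if b j = true then (-1) ^ (j : ℕ) else 1

lemma eps_mul_self (b : Bt n) : eps (F := F) b * eps (F := F) b = 1 := by
  rw [eps, ← Finset.prod_mul_distrib]
  apply Finset.prod_eq_one
  intro j _
  split_ifs
  · rw [← mul_pow]
    simp
  · simp

lemma eps_update_true (b : Bt n) {i : Fin n} (hb : b i = false) :
    eps (F := F) (Function.update b i true) = eps (F := F) b * (-1) ^ (i : ℕ) := by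
  rw [eps, eps, ← Finset.mul_prod_erase _ _ (Finset.mem_univ i), ← Finset.mul_prod_erase _ _ (Finset.mem_univ i)]
  have : ∀ j ∈ Finset.univ.erase i, (if Function.update b i true j = true then ((-1 : F) ^ (j : ℕ)) else 1) =
      (if b j = true then ((-1 : F) ^ (j : ℕ)) else 1) := by
    intro j hj
    rw [Function.update_of_ne (Finset.ne_of_mem_erase hj)]
  rw [Finset.prod_congr rfl this]
  simp [hb]
  ring

lemma eps_update_false (b : Bt n) {i : Fin n} (hb : b i = true) :
    eps (F := F) b = eps (F := F) (Function.update b i false) * (-1) ^ (i : ℕ) := by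
  have := eps_update_true (F := F) (Function.update b i false) (i := i) (by simp)
  rwa [Function.update_idem, Function.update_eq_self_iff.2 hb.symm] at this

lemma jw_cpl (b : Bt n) (i : Fin n) : jw F (cpl b) i = (-1) ^ (i : ℕ) * jw F b i := by
  have h1 : (Finset.univ.filter fun j : Fin n => j < i ∧ cpl b j = true).card +
      (Finset.univ.filter fun j : Fin n => j < i ∧ b j = true).card = i := by
    rw [← Finset.card_union_of_disjoint]
    · have : (Finset.univ.filter fun j : Fin n => j < i ∧ cpl b j = true) ∪
          (Finset.univ.filter fun j : Fin n => j < i ∧ b j = true) = Finset.Iio i := by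
        ext j
        simp only [Finset.mem_union, Finset.mem_filter, Finset.mem_univ, true_and, Finset.mem_Iio, cpl]
        by_cases hb : b j = true <;> simp [hb]
      rw [this, Fin.card_Iio]
    · rw [Finset.disjoint_left]
      intro j hj hj'
      simp only [Finset.mem_filter, Finset.mem_univ, true_and, cpl] at hj hj'
      simp [hj'.2] at hj
  unfold jw
  conv_rhs => rw [← h1, pow_add, mul_assoc, ← mul_pow]
  simp

lemma card_cpl_sign (b : Bt n) : ((-1 : F) ^ (Finset.univ.filter fun j : Fin n => cpl b j = true).card) =
    (-1) ^ n * (-1) ^ (Finset.univ.filter fun j : Fin n => b j = true).card := by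
  have h1 : (Finset.univ.filter fun j : Fin n => cpl b j = true).card +
      (Finset.univ.filter fun j : Fin n => b j = true).card = n := by
    rw [← Finset.card_union_of_disjoint]
    · have : (Finset.univ.filter fun j : Fin n => cpl b j = true) ∪
          (Finset.univ.filter fun j : Fin n => b j = true) = Finset.univ := by
        ext j
        simp only [Finset.mem_union, Finset.mem_filter, Finset.mem_univ, true_and, cpl, iff_true]
        by_cases hb : b j = true <;> simp [hb]
      rw [this]
      simp
    · rw [Finset.disjoint_left]
      intro j hj hj'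
      simp only [Finset.mem_filter, Finset.mem_univ, true_and, cpl] at hj hj'
      simp [hj'] at hj
  have h2 : ((-1 : F) ^ n) = (-1) ^ (Finset.univ.filter fun j : Fin n => cpl b j = true).card *
      (-1) ^ (Finset.univ.filter fun j : Fin n => b j = true).card := by
    rw [← pow_add, h1]
  rw [h2, mul_assoc, ← mul_pow]
  simp

variable (n F) in
/-- The form. -/
def bB : MS n F := Matrix.of fun b c => if c = cpl b then eps b else 0

lemma bB_apply (b c : Bt n) : bB n F b c = if c = cpl b then eps b else 0 := rfl

lemma bB_mul_apply (M : MS n F) (b c : Bt n) : (bB n F * M) b c = eps b * M (cpl b) c := by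
  rw [Matrix.mul_apply, Finset.sum_eq_single (cpl b)]
  · rw [bB_apply, if_pos rfl]
  · intro d _ hd
    rw [bB_apply, if_neg hd, zero_mul]
  · simp

variable (n F) in
lemma bB_mul_transpose : bB n F * (bB n F)ᵀ = 1 := by
  ext b c
  rw [bB_mul_apply, Matrix.transpose_apply, bB_apply, Matrix.one_apply]
  by_cases h : b = c
  · subst h
    rw [if_pos rfl, if_pos rfl, eps_mul_self]
  · rw [if_neg h, if_neg (fun h' => h (cpl_inj h')), mul_zero]

theorem ann_mul_bB (i : Fin n) : ann F i * bB n F = bB n F * cre F i := by
  ext b c
  rw [ann_mul_apply, bB_mul_apply, bB_apply, cre_apply, cpl_update]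
  by_cases hb : b i = false
  · have h1 : cpl b i = true := by simp [cpl, hb]
    rw [if_pos hb, Bool.not_true]
    by_cases hc : c = Function.update (cpl b) i false
    · rw [if_pos hc, if_pos ⟨h1, hc⟩, jw_cpl, eps_update_true b hb]
      ring
    · rw [if_neg hc, if_neg (fun h => hc h.2)]
      simp
  · have h1 : ¬ cpl b i = true := by
      have : b i = true := by simpa using hb
      simp [cpl, this]
    rw [if_neg hb, if_neg (fun h => h1 h.1), mul_zero]

theorem cre_mul_bB (i : Fin n) : cre F i * bB n F = bB n F * ann F i := by
  ext b c
  rw [cre_mul_apply, bB_mul_apply, bB_apply, ann_apply, cpl_update]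
  by_cases hb : b i = true
  · rw [if_pos hb, Bool.not_false]
    have hb' : cpl b i = false := by simp [cpl, hb]
    by_cases hc : c = Function.update (cpl b) i true
    · have e1 : c i = true := by rw [hc]; simp
      have e2 : cpl b = Function.update c i false := by
        rw [hc, Function.update_idem, Function.update_eq_self_iff.2 hb'.symm]
      rw [if_pos hc, if_pos ⟨e1, e2⟩, hc, jw_update_of_le _ (le_refl i), jw_cpl, eps_update_false b hb]
      have := jw_mul_self (F := F) b i
      have h2 : ((-1 : F) ^ (i : ℕ)) * (-1) ^ (i : ℕ) = 1 := by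
        rw [← mul_pow]; simp
      linear_combination (- eps (F := F) (Function.update b i false) * jw F b i) * h2
    · rw [if_neg hc, if_neg]
      · simp
      · rintro ⟨h1, h2⟩
        apply hc
        rw [h2, Function.update_idem, Function.update_eq_self_iff.2 h1.symm]
  · have hb' : cpl b i = true := by
      have : b i = false := by simpa using hb
      simp [cpl, this]
    rw [if_neg hb, if_neg, mul_zero]
    rintro ⟨h1, h2⟩
    have := congrFun h2 i
    rw [hb'] at this
    simp at this

theorem gam_sq : gam F * gam F = (1 : MS n F) := by
  rw [gam, Matrix.diagonal_mul_diagonal, ← Matrix.diagonal_one]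
  congr 1
  funext b
  rw [← mul_pow]
  simp

theorem gam_rho (v : Fin n ⊕ Fin n → F) : gam F * rho v = -(rho v * gam F) := by
  simp only [rho, Finset.mul_sum, Finset.sum_mul, mul_add, add_mul, mul_smul_comm, smul_mul_assoc, gam_cre, gam_ann, smul_neg, ← Finset.sum_neg_distrib, neg_add]

/-- The form for which the Clifford map is self-adjoint. -/
theorem exists_form (n : ℕ) (F : Type*) [Field F] : ∃ B : MS n F, IsUnit B ∧ (∀ v : Fin n ⊕ Fin n → F, (rho v)ᵀ * B = B * rho v) ∧
    (gam F)ᵀ * B = ((-1 : F) ^ n) • (B * gam F) := by
  refine ⟨bB n F, ?_, ?_, ?_⟩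
  · exact ⟨⟨bB n F, (bB n F)ᵀ, bB_mul_transpose n F, mul_eq_one_comm.1 (bB_mul_transpose n F)⟩, rfl⟩
  · intro v
    have h1 : (rho v)ᵀ = ∑ i, (v (Sum.inl i) • ann F i + v (Sum.inr i) • cre F i) := by
      rw [rho, Matrix.transpose_sum]
      refine Finset.sum_congr rfl fun i _ => ?_
      rw [Matrix.transpose_add, Matrix.transpose_smul, Matrix.transpose_smul, ann, Matrix.transpose_transpose]
    rw [h1, rho, Finset.sum_mul, Finset.mul_sum]
    refine Finset.sum_congr rfl fun i _ => ?_
    rw [add_mul, mul_add, smul_mul_assoc, smul_mul_assoc, mul_smul_comm, mul_smul_comm, ann_mul_bB, cre_mul_bB]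
  · rw [gam, Matrix.diagonal_transpose]
    ext b c
    rw [Matrix.smul_apply, Matrix.diagonal_mul, Matrix.mul_diagonal, bB_apply, smul_eq_mul]
    by_cases h : c = cpl b
    · subst h
      rw [if_pos rfl, card_cpl_sign]
      have h2 : ((-1 : F) ^ n * (-1 : F) ^ n) = 1 := by
        rw [← mul_pow]; simp
      linear_combination (-(((-1 : F) ^ (Finset.univ.filter fun j : Fin n => b j = true).card) * eps (F := F) b)) * h2
    · simp [h]

end fock

end Cfsg.Agent.Lib.OmStem
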