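import Cfsg.Agent.Lib.OmStem.Special

/-!
# The lift of the Weyl element (module C1)

Paper proof. In the target, with `s = (levG (em D.ca wn))⁻¹`, `W = WtG D.ab`: `s W s = W s W =: Δ` (`Wt_braid`), so `W Δ = Δ s`.
Let `s' = (lam (em D.ca wn))⁻¹`, `Δ'` a lift of `Δ` (elements `up`, `low`, `lev` have lifts by `FlipSec`, and `WtG_eq`), `w = Δ' s' Δ'⁻¹`.
Then `π w = W`; `s' w s'` is a lift of `Δ`, so equals `c Δ'`, `c` central; so `w (s' w s') = c w Δ' = c Δ' s' = s' w s' s'`, which is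
the braid relation. `s'⁴ = 1` (`wn_sq`), so `w⁴ = 1`; `z = w * w * (lam (tt D.ab (-1)))⁻¹` lies over `1` (`WtG_sq`), so is central; `z * z = w⁴ * lam (tt (-1))⁻² = 1`.
If `2 = 0`: `em wn` squares to `tt (-1) = 1`, so `s' * s' = 1`, `w * w = 1`, `z = 1`.
Commuting relations: all follow from commuting lifts `CL π` (use `WtG_eq`: `W = up (Kz a b (-1)) * low (Kz b a 1) * up (Kz a b (-1))` and `CL.mul_left`):
`T_pq(t)` with `p,q ∉ {a,b}`: `cl_lev_up`, `cl_lev_low`. `T_ab(t)`, `T_ba(t)`: `special_pair`, `special_low` and `Kz_symm`.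
theta: `l * tt(ε)⁻¹` fixes `a,b` (`ε = ±1`): `fix2_mem` with `K = ` subgroup of `l` with `Commute w (lam l)`, and `tt D.ab (-1)` is a product of `T_ab`, `T_ba` (`em_dd`, `m2_induction`).
seed1: `w lam(T_ca 1) w⁻¹` lifts `upG (Kz c b 1)` (`Wt_Tca`), `cl_lev_up` with `T_da(1)`. seed2: lifts `upG (Kz c a (-1))` (`Wt_Tcb`), `special_pair` with `T_ca(1)`.
-/

set_option autoImplicit false

namespace Cfsg.Agent.Lib.OmStem

open Matrix Cfsg Subgroup Cfsg.Agent.Lib.PresOm Cfsg.Agent.Lib.PresSp.M2 Cfsg.Agent.Lib.PresSp.Mono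
  Cfsg.Agent.Lib.PresSLn.TwoGen Cfsg.Agent.Lib.PresSp.Abs


section sec

variable {n : ℕ} {F : Type*} [Field F] {Γ : Type*} [Group Γ]
variable {π : Γ →* GeneralLinearGroup (Fin n ⊕ Fin n) F}

lemma up_mem_range (H : FlipSec π) {i j : Fin n} (hij : i ≠ j) (t : F) : upG (Kz i j t) ∈ π.range := by
  obtain ⟨lamA, hA⟩ := H.sec {j}
  refine ⟨lamA (TT hij t), ?_⟩
  rw [hA, flip_up hij t (by simpa using hij) (by simp)]

lemma low_mem_range (H : FlipSec π) {i j : Fin n} (hij : i ≠ j) (t : F) : lowG (Kz i j t) ∈ π.range := by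
  obtain ⟨lamA, hA⟩ := H.sec {i}
  refine ⟨lamA (TT hij t), ?_⟩
  rw [hA, flip_low hij t (by simp) (by simpa using hij.symm)]

lemma W_mem_range (H : FlipSec π) {a b : Fin n} (hab : a ≠ b) : WtG hab ∈ π.range := by
  rw [WtG_eq hab]
  exact mul_mem (mul_mem (up_mem_range H hab _) (low_mem_range H hab.symm _)) (up_mem_range H hab _)

/-- Elements whose lifts commute with those of the three factors of `W`. -/
lemma CL_W (H : FlipSec π) {a b : Fin n} (hab : a ≠ b) {x : GeneralLinearGroup (Fin n ⊕ Fin n) F}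
    (h1 : CL π x (upG (Kz a b (-1)))) (h2 : CL π x (lowG (Kz b a 1))) : CL π (WtG hab) x := by
  rw [WtG_eq hab]
  refine CL.mul_left H.central (mul_mem (up_mem_range H hab _) (low_mem_range H hab.symm _)) (up_mem_range H hab _) ?_ h1.symm
  exact CL.mul_left H.central (up_mem_range H hab _) (low_mem_range H hab.symm _) h1.symm h2.symm

lemma CL_W_out (H : FlipSec π) {a b p q : Fin n} (hab : a ≠ b) (hpq : p ≠ q) (hpa : p ≠ a) (hpb : p ≠ b) (hqa : q ≠ a)
    (hqb : q ≠ b) (t : F) : CL π (WtG hab) (levG (TT hpq t)) :=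
  CL_W H hab (cl_lev_up H hpq hab hqa hqb t (-1)) (cl_lev_low H hpq hab.symm hpb hpa t 1)

lemma CL_W_ab (H : FlipSec π) (hn : 4 ≤ n) {a b : Fin n} (hab : a ≠ b) (t : F) : CL π (WtG hab) (levG (TT hab t)) := by
  refine CL_W H hab (special_pair H hn hab t (-1)) ?_
  rw [Kz_symm]
  exact special_low H hn hab t (-1)

lemma CL_W_ba (H : FlipSec π) (hn : 4 ≤ n) {a b : Fin n} (hab : a ≠ b) (t : F) : CL π (WtG hab) (levG (TT hab.symm t)) := by
  refine CL_W H hab ?_ (special_low H hn hab.symm t 1)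
  have : Kz a b (-1 : F) = Kz b a 1 := (Kz_symm a b 1).symm
  rw [this]
  exact special_pair H hn hab.symm t 1

lemma mv_tt_neg_a {a b : Fin n} (hab : a ≠ b) : Mv (tt hab (-1 : Fˣ)) a a (-1 : F) where
  col := by
    rw [coe_tt]
    ext r
    rw [mulVec_single_one]
    change diagonal (td a b (-1 : Fˣ)) r a = _
    by_cases h : r = a
    · subst h
      simp [td]
    · simp [diagonal_apply, h, Pi.single_apply]
  row := by
    rw [coe_tt]
    ext r
    rw [single_one_vecMul]
    change diagonal (td a b (-1 : Fˣ)) a r = _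
    by_cases h : r = a
    · subst h
      simp [td]
    · have : ¬ a = r := fun e => h e.symm
      simp [diagonal_apply, h, this, Pi.single_apply]
  sq := by simp

/-- Lifting the braid relation to a central extension. -/
lemma braid_lift {Γ G : Type*} [Group Γ] [Group G] {π : Γ →* G} (hcen : π.ker ≤ center Γ) {s' W' : Γ} {s W : G}
    (hs : π s' = s) (hW' : π W' = W) (hbr : s * W * s = W * s * W) :
    ∃ w Δ : Γ, π w = W ∧ s' * w * s' = w * s' * w ∧ w * w = Δ * (s' * s') * Δ⁻¹ := by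
  set Δ' : Γ := s' * W' * s' with hΔ'
  have hπΔ : π Δ' = s * W * s := by
    rw [hΔ', map_mul, map_mul, hs, hW']
  refine ⟨Δ' * s' * Δ'⁻¹, Δ', ?_, ?_, by group⟩
  · rw [map_mul, map_mul, map_inv, hπΔ, hs, mul_inv_eq_iff_eq_mul]
    calc s * W * s * s = (s * W * s) * s := rfl
      _ = (W * s * W) * s := by rw [hbr]
      _ = W * (s * W * s) := by group
  · set w : Γ := Δ' * s' * Δ'⁻¹ with hw
    have hπw : π w = W := by
      rw [hw, map_mul, map_mul, map_inv, hπΔ, hs, mul_inv_eq_iff_eq_mul]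
      calc s * W * s * s = (s * W * s) * s := rfl
        _ = (W * s * W) * s := by rw [hbr]
        _ = W * (s * W * s) := by group
    set c : Γ := s' * w * s' * Δ'⁻¹ with hc
    have hc1 : π c = 1 := by
      rw [hc, map_mul, map_mul, map_mul, map_inv, hs, hπw, hπΔ]
      group
    have hcc : c ∈ center Γ := hcen (by simpa [MonoidHom.mem_ker] using hc1)
    have e1 : s' * w * s' = c * Δ' := by rw [hc]; group
    have e2 : w * Δ' = Δ' * s' := by rw [hw]; group
    have e3 : w * c = c * w := mem_center_iff.1 hcc w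
    have e4 : (w * s' * w) * s' = (s' * w * s') * s' := by
      calc (w * s' * w) * s' = w * (s' * w * s') := by group
        _ = w * (c * Δ') := by rw [e1]
        _ = (w * c) * Δ' := by group
        _ = c * (w * Δ') := by rw [e3]; group
        _ = c * (Δ' * s') := by rw [e2]
        _ = (c * Δ') * s' := by group
        _ = _ := by rw [e1]
    exact (mul_right_cancel e4).symm

/-- The Weyl lift. -/
theorem exists_weyl (H : FlipSec π) (hn : 4 ≤ n) {a b c d : Fin n} (D : Dist a b c d)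
    (lam : SpecialLinearGroup (Fin n) F →* Γ) (hlam : ∀ l, π (lam l) = levG l) :
    ∃ w : Γ, π w = WtG D.ab ∧
      (∀ (l : SpecialLinearGroup (Fin n) F) (ε : F), Mv l a a ε → Mv l b b ε → Commute w (lam l)) ∧
      (∀ t : F, Commute w (lam (TT D.ab t))) ∧ (∀ t : F, Commute w (lam (TT D.ab.symm t))) ∧
      (lam (em D.ca wn))⁻¹ * w * (lam (em D.ca wn))⁻¹ = w * (lam (em D.ca wn))⁻¹ * w ∧
      Commute (w * lam (TT D.ca 1) * w⁻¹) (lam (TT D.da 1)) ∧
      Commute (w * lam (TT D.cb 1) * w⁻¹) (lam (TT D.ca 1)) ∧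
      ∃ z : Γ, z ∈ center Γ ∧ w * w = z * lam (tt D.ab (-1)) ∧ z * z = 1 ∧ ((2 : F) = 0 → z = 1) := by
  classical
  have hcen : ∀ x : Γ, π x = 1 → x ∈ center Γ := fun x hx => H.central (by simpa [MonoidHom.mem_ker] using hx)
  obtain ⟨W', hW'⟩ := W_mem_range H D.ab
  obtain ⟨w, Δ', hπw, hbraid, hw2⟩ := braid_lift H.central (s' := (lam (em D.ca wn))⁻¹) (W' := W')
    (s := (levG (em D.ca wn))⁻¹) (W := WtG D.ab) (by rw [map_inv, hlam]) hW' (Wt_braid D)
  have hs2 : (lam (em D.ca wn))⁻¹ * (lam (em D.ca wn))⁻¹ = (lam (tt D.ca (-1)))⁻¹ := by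
    rw [← _root_.mul_inv_rev, ← map_mul, wn_sq_em]
  rw [hs2] at hw2
  have htt2 : (lam (tt D.ca (-1)))⁻¹ * (lam (tt D.ca (-1)))⁻¹ = 1 := by
    rw [← _root_.mul_inv_rev, ← map_mul, tt_neg_sq, map_one, inv_one]
  -- the square
  set y : Γ := lam (tt D.ab (-1)) with hy
  have hyy : y * y = 1 := by
    rw [hy, ← map_mul, tt_neg_sq, map_one]
  set z : Γ := w * w * y⁻¹ with hz
  have hπz : π z = 1 := by
    rw [hz, map_mul, map_mul, map_inv, hπw, hy, hlam, WtG_sq]
    group
  have hzc := hcen z hπz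
  have hww : w * w = z * y := by rw [hz]; group
  refine ⟨w, hπw, ?_, ?_, ?_, ?_, ?_, ?_, z, hzc, hww, ?_, ?_⟩
  · -- theta
    have ht1 : ∀ l : SpecialLinearGroup (Fin n) F, Mv l a a 1 → Mv l b b 1 → Commute w (lam l) := by
      intro l h1 h2
      have hmem : l ∈ (Subgroup.centralizer {w}).comap lam := by
        refine fix2_mem D.cd D.ca D.cb D.da D.db _ ?_ h1 h2
        intro k m hkm ka kb ma mb t
        rw [Subgroup.mem_comap, Subgroup.mem_centralizer_singleton_iff]
        exact ((CL_W_out H D.ab hkm ka kb ma mb t) w (lam (TT hkm t)) hπw (hlam _)).eq.symm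
      rw [Subgroup.mem_comap, Subgroup.mem_centralizer_singleton_iff] at hmem
      exact hmem.symm
    have hty : Commute w y := by
      have : y = z⁻¹ * (w * w) := by rw [hww]; group
      rw [this]
      have hz' : Commute w z⁻¹ := (mem_center_iff.1 (inv_mem hzc) w)
      exact hz'.mul_right ((Commute.refl w).mul_right (Commute.refl w))
    intro l ε h1 h2
    have hε : ε = 1 ∨ ε = -1 := by
      have := h1.sq
      exact mul_self_eq_one_iff.1 this
    rcases hε with rfl | rfl
    · exact ht1 l h1 h2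
    · have e : l = (l * tt D.ab (-1)) * tt D.ab (-1) := by
        rw [mul_assoc, tt_neg_sq, mul_one]
      have m1 : Mv (l * tt D.ab (-1)) a a 1 := by
        have := (mv_tt_neg_a D.ab (F := F)).mul h1
        simpa using this
      have m2 : Mv (l * tt D.ab (-1)) b b 1 := by
        have := (mv_tt_neg_b D.ab (F := F)).mul h2
        simpa using this
      rw [e, map_mul]
      exact (ht1 _ m1 m2).mul_right hty
  · intro t
    exact (CL_W_ab H hn D.ab t) w _ hπw (hlam _)
  · intro t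
    exact (CL_W_ba H hn D.ab t) w _ hπw (hlam _)
  · exact hbraid
  · refine (cl_lev_up H D.da D.cb D.ca.symm D.ab 1 1) _ _ (hlam _) ?_ |>.symm
    rw [map_mul, map_mul, map_inv, hπw, hlam, Wt_Tca D]
  · refine (special_pair H hn D.ca 1 (-1)) _ _ (hlam _) ?_ |>.symm
    rw [map_mul, map_mul, map_inv, hπw, hlam, Wt_Tcb D]
  · -- z * z = 1
    have e1 : w * w * (w * w) = 1 := by
      rw [hw2]
      calc Δ' * (lam (tt D.ca (-1)))⁻¹ * Δ'⁻¹ * (Δ' * (lam (tt D.ca (-1)))⁻¹ * Δ'⁻¹)
          = Δ' * ((lam (tt D.ca (-1)))⁻¹ * (lam (tt D.ca (-1)))⁻¹) * Δ'⁻¹ := by group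
        _ = 1 := by rw [htt2]; group
    have e2 : w * w * (w * w) = z * z * (y * y) := by
      rw [hww]
      have := mem_center_iff.1 hzc y
      calc z * y * (z * y) = z * (y * z) * y := by group
        _ = z * (z * y) * y := by rw [this]
        _ = _ := by group
    rw [e2, hyy, mul_one] at e1
    exact e1
  · intro h2
    have hm : (-1 : Fˣ) = 1 := by
      apply Units.ext
      have : (1 : F) + 1 = 0 := by
        rw [← h2]; norm_num
      simpa using (eq_neg_of_add_eq_zero_left this).symm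
    have hyt : y = 1 := by
      rw [hy, hm, tt_one, map_one]
    have ht' : (lam (tt D.ca (-1))) = 1 := by
      rw [hm, tt_one, map_one]
    have : w * w = 1 := by
      rw [hw2, ht', inv_one, mul_one]
      group
    rw [hz, this, hyt]
    group

end sec

end Cfsg.Agent.Lib.OmStem
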